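/-
Schur multiplier of the alternating groups: a stem extension of `A_n`, `n = 5` or `n ≥ 8`, by `Z` has `|Z| ≤ 2`.
-/
import Mathlib
import Cfsg.Agent.H73.MooreAlt

set_option autoImplicit false
set_option linter.unusedSectionVars false

open Equiv Equiv.Perm Subgroup

namespace Cfsg.Agent.H73.AltMult

section Cyc

variable {α : Type*} [DecidableEq α]

/-- the 3-cycle `x → y → z → x` -/
def c3 (x y z : α) : Perm α := swap x y * swap y z

theorem conj_swap (σ : Perm α) (x y : α) : σ * swap x y * σ⁻¹ = swap (σ x) (σ y) :=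
  (Equiv.swap_apply_apply σ x y).symm

theorem conj_c3 (σ : Perm α) (x y z : α) : σ * c3 x y z * σ⁻¹ = c3 (σ x) (σ y) (σ z) := by
  rw [c3, c3, ← conj_swap, ← conj_swap]; group

theorem swap_swap_swap {x y z : α} (hxz : x ≠ z) (hyz : y ≠ z) :
    swap x y * swap y z * swap x y = swap x z := by
  have h := conj_swap (swap x y) y z
  rw [swap_inv, swap_apply_right, swap_apply_of_ne_of_ne hxz.symm hyz.symm] at h
  exact h

theorem swap_comm' {x y z w : α} (h1 : x ≠ z) (h2 : x ≠ w) (h3 : y ≠ z) (h4 : y ≠ w) :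
    swap x y * swap z w = swap z w * swap x y := by
  have h := conj_swap (swap x y) z w
  rw [swap_inv, swap_apply_of_ne_of_ne h1.symm h3.symm, swap_apply_of_ne_of_ne h2.symm h4.symm] at h
  calc swap x y * swap z w = (swap x y * swap z w * swap x y) * swap x y := by
        rw [mul_assoc (swap x y * swap z w), swap_mul_self, mul_one]
    _ = _ := by rw [h]

theorem c3_inv {x y z : α} (hxz : x ≠ z) (hyz : y ≠ z) : (c3 x y z)⁻¹ = c3 y x z := by
  have h := swap_swap_swap hxz hyz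
  rw [c3, c3, mul_inv_rev, swap_inv, swap_inv, swap_comm y x]
  rw [← h, ← mul_assoc, ← mul_assoc, swap_mul_self, one_mul]

theorem c3_mul_c3 {p q a b : α} (hpa : p ≠ a) (hqa : q ≠ a) :
    c3 p q a * c3 p q b = swap p a * swap q b := by
  have h := swap_swap_swap hpa hqa
  rw [c3, c3, ← h]; group

theorem c3_mul_sq {p q a b : α} (hpq : p ≠ q) (hpa : p ≠ a) (hqa : q ≠ a) (hpb : p ≠ b) (hab : a ≠ b) :
    (c3 p q a * c3 p q b) ^ 2 = 1 := by
  rw [c3_mul_c3 hpa hqa, pow_two]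
  have h := swap_comm' hpq hpb hqa.symm hab
  calc swap p a * swap q b * (swap p a * swap q b) = swap p a * (swap q b * swap p a) * swap q b := by group
    _ = swap p a * (swap p a * swap q b) * swap q b := by rw [h]
    _ = (swap p a * swap p a) * (swap q b * swap q b) := by group
    _ = 1 := by rw [swap_mul_self, swap_mul_self, mul_one]

theorem c3_cube {x y z : α} (hxy : x ≠ y) (hxz : x ≠ z) (hyz : y ≠ z) : c3 x y z ^ 3 = 1 := by
  have h := swap_swap_swap hxz hyz
  have h2 := swap_swap_swap (x := z) (y := y) (z := x) hxz.symm hxy.symm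
  rw [swap_comm z y, swap_comm y x, swap_comm z x] at h2
  have e : c3 x y z ^ 3 = (swap x y * swap y z * swap x y) * (swap y z * swap x y * swap y z) := by
    rw [c3]; simp only [pow_succ, pow_zero, one_mul]; group
  rw [e, h, h2, swap_mul_self]

theorem c3_word {p q a b : α} (hpq : p ≠ q) (hpa : p ≠ a) (hqa : q ≠ a) (hpb : p ≠ b) (hqb : q ≠ b) (hab : a ≠ b) :
    (c3 p q a)⁻¹ * c3 p q b * (c3 p q a)⁻¹ = swap p q * swap a b := by
  have h := swap_swap_swap (x := a) (y := q) (z := b) hab hqb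
  have h2 := swap_comm' hpa hpb hqa hqb
  rw [h2, ← h, swap_comm a q]
  rw [c3, c3, mul_inv_rev, swap_inv, swap_inv]
  have e : swap q a * swap p q * (swap p q * swap q b) * (swap q a * swap p q) =
    swap q a * (swap p q * swap p q) * (swap q b * swap q a * swap p q) := by group
  rw [e, swap_mul_self]; group

theorem sign_c3 [Fintype α] {x y z : α} (hxy : x ≠ y) (hyz : y ≠ z) : Perm.sign (c3 x y z) = 1 := by
  rw [c3, map_mul, sign_swap hxy, sign_swap hyz]; rfl

end Cyc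

section Lift

variable {α : Type*} [DecidableEq α] [Fintype α] {Γ : Type*} [Group Γ]

theorem conj_mul' {G : Type*} [Group G] (g x y : G) : g * (x * y) * g⁻¹ = (g * x * g⁻¹) * (g * y * g⁻¹) := by
  group

theorem exists_lift (π : Γ →* Perm α) (hcen : ∀ z, π z = 1 → z ∈ center Γ)
    (hsurj : ∀ σ : Perm α, Perm.sign σ = 1 → ∃ g, π g = σ) {p q r u v : α} (hpq : p ≠ q) (hpr : p ≠ r)
    (hqr : q ≠ r) (hpu : p ≠ u) (hqu : q ≠ u) (hru : r ≠ u) (hpv : p ≠ v) (hqv : q ≠ v) (hrv : r ≠ v) (huv : u ≠ v) :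
    ∃ X : Γ, π X = c3 p q r ∧ X ^ 3 = 1 ∧ ∃ g : Γ, π g = swap p q * swap u v ∧ g * X * g⁻¹ = X⁻¹ := by
  obtain ⟨X, hX⟩ := hsurj (c3 p q r) (sign_c3 hpq hqr)
  obtain ⟨g, hg⟩ := hsurj (swap p q * swap u v) (by rw [map_mul, sign_swap hpq, sign_swap huv]; rfl)
  have hgp : (swap p q * swap u v) p = q := by
    rw [Perm.mul_apply, swap_apply_of_ne_of_ne hpu hpv, swap_apply_left]
  have hgq : (swap p q * swap u v) q = p := by
    rw [Perm.mul_apply, swap_apply_of_ne_of_ne hqu hqv, swap_apply_right]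
  have hgr : (swap p q * swap u v) r = r := by
    rw [Perm.mul_apply, swap_apply_of_ne_of_ne hru hrv, swap_apply_of_ne_of_ne hpr.symm hqr.symm]
  -- `c = X g X g⁻¹` is central
  set c : Γ := X * (g * X * g⁻¹) with hc
  have hcc : c ∈ center Γ := by
    apply hcen
    rw [hc, map_mul, map_mul, map_mul, map_inv, hX, hg, conj_c3, hgp, hgq, hgr, ← c3_inv hpr hqr, mul_inv_cancel]
  have hac : X ^ 3 ∈ center Γ := hcen _ (by rw [map_pow, hX, c3_cube hpq hpr hqr])
  have hgX : g * X * g⁻¹ = X⁻¹ * c := by rw [hc]; group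
  rw [Subgroup.mem_center_iff] at hcc hac
  have hcX : Commute c X := (hcc X).symm
  have haX : Commute (X ^ 3) X := (hac X).symm
  have hac' : Commute (X ^ 3) c := (hac c).symm
  have h1 : X ^ 3 = (X ^ 3)⁻¹ * c ^ 3 := by
    calc X ^ 3 = g * X ^ 3 * g⁻¹ := by rw [hac g]; group
      _ = (g * X * g⁻¹) ^ 3 := by rw [conj_pow]
      _ = (X⁻¹ * c) ^ 3 := by rw [hgX]
      _ = (X⁻¹) ^ 3 * c ^ 3 := (hcX.symm.inv_left).mul_pow 3
      _ = _ := by rw [inv_pow]
  set a : Γ := X ^ 3 with ha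
  have h2 : a * a = c ^ 3 := by
    calc a * a = a * (a⁻¹ * c ^ 3) := by rw [← h1]
      _ = c ^ 3 := by group
  set z : Γ := a⁻¹ * c with hz
  have hzc : ∀ y, y * z = z * y := by
    intro y
    have h3 : Commute y a := hac y
    have h4 : Commute y c := hcc y
    exact (h3.inv_right.mul_right h4).eq
  have hz3 : z ^ 3 = a⁻¹ := by
    rw [hz, (hac'.inv_left).mul_pow, ← h2]
    group
  refine ⟨X * z, ?_, ?_, g, hg, ?_⟩
  · have h3 : π z = 1 := by
      have e1 : π a = 1 := by rw [ha, map_pow, hX, c3_cube hpq hpr hqr]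
      have e2 : π c = 1 := by
        rw [hc, map_mul, map_mul, map_mul, map_inv, hX, hg, conj_c3, hgp, hgq, hgr, ← c3_inv hpr hqr, mul_inv_cancel]
      rw [hz, map_mul, map_inv, e1, e2]; group
    rw [map_mul, hX, h3, mul_one]
  · have h3 : Commute X z := hzc X
    rw [h3.mul_pow, hz3, ← ha, mul_inv_cancel]
  · have h3 : g * z * g⁻¹ = z := by rw [hzc g]; group
    have h4 : c = a * z := by rw [hz]; group
    have h5 : a * z * z * z = 1 := by
      have : z ^ 3 = z * z * z := by rw [pow_succ, pow_two]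
      rw [mul_assoc, mul_assoc, ← mul_assoc z z z, ← this, hz3, mul_inv_cancel]
    rw [conj_mul', hgX, h3, mul_inv_rev, h4]
    have h6 : z⁻¹ = a * z * z := by
      rw [inv_eq_iff_mul_eq_one, ← hzc]; exact h5
    rw [mul_assoc, ← h6]
    have h7 : Commute X z⁻¹ := (show Commute X z from hzc X).inv_right
    exact h7.inv_left.eq

theorem commute_of_fix (π : Γ →* Perm α) (hcen : ∀ z, π z = 1 → z ∈ center Γ)
    (hsurj : ∀ σ : Perm α, Perm.sign σ = 1 → ∃ g, π g = σ) (hev : ∀ g, Perm.sign (π g) = 1)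
    (hcard : Nat.card α = 5 ∨ 8 ≤ Nat.card α)
    {p q r : α} (hpq : p ≠ q) (hpr : p ≠ r) (hqr : q ≠ r) {X : Γ} (hX : π X = c3 p q r)
    {h : Γ} (hp : π h p = p) (hq : π h q = q) (hr : π h r = r) : h * X = X * h := by
  classical
  let P : α → Prop := fun t => t ≠ p ∧ t ≠ q ∧ t ≠ r
  -- permutations of the complement commute with `c3 p q r`
  have hcomm : ∀ σ : Perm α, σ p = p → σ q = q → σ r = r → σ * c3 p q r * σ⁻¹ = c3 p q r := by
    intro σ h1 h2 h3
    rw [conj_c3, h1, h2, h3]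
  have hfix : ∀ τ : Perm {t // P t}, Perm.ofSubtype τ p = p ∧ Perm.ofSubtype τ q = q ∧ Perm.ofSubtype τ r = r := by
    intro τ
    refine ⟨?_, ?_, ?_⟩ <;> apply Perm.ofSubtype_apply_of_not_mem <;> simp [P]
  have hz : ∀ g : Γ, π g p = p → π g q = q → π g r = r → ∃ z, (∀ y, y * z = z * y) ∧ g * X * g⁻¹ = X * z := by
    intro g h1 h2 h3
    refine ⟨X⁻¹ * (g * X * g⁻¹), ?_, by group⟩
    have : X⁻¹ * (g * X * g⁻¹) ∈ center Γ := by
      apply hcen
      rw [map_mul, map_mul, map_mul, map_inv, map_inv, hX, hcomm _ h1 h2 h3, inv_mul_cancel]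
    exact Subgroup.mem_center_iff.1 this
  let K : Subgroup (alternatingGroup {t // P t}) :=
    { carrier := {τ | ∀ g : Γ, π g = Perm.ofSubtype (τ : Perm {t // P t}) → g * X = X * g}
      one_mem' := by
        intro g hg
        have : g ∈ center Γ := hcen g (by rw [hg]; simp)
        exact ((Subgroup.mem_center_iff.1 this) X).symm
      mul_mem' := by
        intro a b ha hb g hg
        have hb1 : Perm.sign (Perm.ofSubtype (b : Perm {t // P t})) = 1 := by
          rw [Perm.sign_ofSubtype]; exact b.2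
        obtain ⟨g2, hg2⟩ := hsurj _ hb1
        have h2 := hb g2 hg2
        have h1 := ha (g * g2⁻¹) (by rw [map_mul, map_inv, hg, hg2]; simp)
        calc g * X = (g * g2⁻¹) * (g2 * X) := by group
          _ = ((g * g2⁻¹) * X) * g2 := by rw [h2]; group
          _ = X * g := by rw [h1]; group
      inv_mem' := by
        intro a ha g hg
        have h1 := ha g⁻¹ (by rw [map_inv, hg]; simp)
        calc g * X = g * (X * g⁻¹) * g := by group
          _ = g * (g⁻¹ * X) * g := by rw [h1]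
          _ = X * g := by group }
  have hcommK : commutator (alternatingGroup {t // P t}) ≤ K := by
    rw [commutator_def, Subgroup.commutator_le]
    intro a _ b _ g hg
    have ha1 : Perm.sign (Perm.ofSubtype (a : Perm {t // P t})) = 1 := by
      rw [Perm.sign_ofSubtype]; exact a.2
    have hb1 : Perm.sign (Perm.ofSubtype (b : Perm {t // P t})) = 1 := by
      rw [Perm.sign_ofSubtype]; exact b.2
    obtain ⟨g1, hg1⟩ := hsurj _ ha1
    obtain ⟨g2, hg2⟩ := hsurj _ hb1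
    obtain ⟨z1, hz1, hz1'⟩ := hz g1 (by rw [hg1]; exact (hfix _).1) (by rw [hg1]; exact (hfix _).2.1)
      (by rw [hg1]; exact (hfix _).2.2)
    obtain ⟨z2, hz2, hz2'⟩ := hz g2 (by rw [hg2]; exact (hfix _).1) (by rw [hg2]; exact (hfix _).2.1)
      (by rw [hg2]; exact (hfix _).2.2)
    -- `g = [g1, g2] * central`
    have h3 : (g1 * g2 * g1⁻¹ * g2⁻¹)⁻¹ * g ∈ center Γ := by
      apply hcen
      rw [map_mul, map_inv, map_mul, map_mul, map_mul, map_inv, map_inv, hg1, hg2, hg]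
      simp [commutatorElement_def, mul_assoc]
    have h3' := Subgroup.mem_center_iff.1 h3
    have e1 : g1 * X = X * z1 * g1 := by rw [← hz1']; group
    have e2 : g2 * X = X * z2 * g2 := by rw [← hz2']; group
    have e1' : g1⁻¹ * X = X * z1⁻¹ * g1⁻¹ := by
      have hc : g1 * z1⁻¹ = z1⁻¹ * g1 := (show Commute g1 z1 from hz1 g1).inv_right.eq
      rw [inv_mul_eq_iff_eq_mul]
      calc X = X * z1 * (z1⁻¹ * g1) * g1⁻¹ := by group
        _ = X * z1 * (g1 * z1⁻¹) * g1⁻¹ := by rw [hc]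
        _ = (X * z1 * g1) * z1⁻¹ * g1⁻¹ := by group
        _ = (g1 * X) * z1⁻¹ * g1⁻¹ := by rw [e1]
        _ = _ := by group
    have e2' : g2⁻¹ * X = X * z2⁻¹ * g2⁻¹ := by
      have hc : g2 * z2⁻¹ = z2⁻¹ * g2 := (show Commute g2 z2 from hz2 g2).inv_right.eq
      rw [inv_mul_eq_iff_eq_mul]
      calc X = X * z2 * (z2⁻¹ * g2) * g2⁻¹ := by group
        _ = X * z2 * (g2 * z2⁻¹) * g2⁻¹ := by rw [hc]
        _ = (X * z2 * g2) * z2⁻¹ * g2⁻¹ := by group
        _ = (g2 * X) * z2⁻¹ * g2⁻¹ := by rw [e2]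
        _ = _ := by group
    have h4 : (g1 * g2 * g1⁻¹ * g2⁻¹) * X = X * (g1 * g2 * g1⁻¹ * g2⁻¹) := by
      have c1 : ∀ y, y * z1⁻¹ = z1⁻¹ * y := fun y => (show Commute y z1 from hz1 y).inv_right.eq
      have c2 : ∀ y, y * z2⁻¹ = z2⁻¹ * y := fun y => (show Commute y z2 from hz2 y).inv_right.eq
      calc (g1 * g2 * g1⁻¹ * g2⁻¹) * X = g1 * g2 * g1⁻¹ * (g2⁻¹ * X) := by group
        _ = g1 * g2 * (g1⁻¹ * X) * (z2⁻¹ * g2⁻¹) := by rw [e2']; group
        _ = g1 * (g2 * X) * (z1⁻¹ * g1⁻¹ * z2⁻¹ * g2⁻¹) := by rw [e1']; group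
        _ = (g1 * X) * (z2 * g2 * z1⁻¹ * g1⁻¹ * z2⁻¹ * g2⁻¹) := by rw [e2]; group
        _ = X * z1 * g1 * (z2 * g2 * z1⁻¹ * g1⁻¹ * z2⁻¹ * g2⁻¹) := by rw [e1]
        _ = X * (z1 * (g1 * (z2 * (g2 * (z1⁻¹ * (g1⁻¹ * (z2⁻¹ * g2⁻¹))))))) := by group
        _ = X * (z1 * (g1 * (z2 * (z1⁻¹ * (g2 * (g1⁻¹ * (z2⁻¹ * g2⁻¹))))))) := by
            rw [← mul_assoc g2 z1⁻¹, c1 g2, mul_assoc z1⁻¹ g2]
        _ = X * (z1 * (g1 * (z1⁻¹ * (z2 * (g2 * (g1⁻¹ * (z2⁻¹ * g2⁻¹))))))) := by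
            rw [← mul_assoc z2 z1⁻¹, c1 z2, mul_assoc z1⁻¹ z2]
        _ = X * (z1 * (z1⁻¹ * (g1 * (z2 * (g2 * (g1⁻¹ * (z2⁻¹ * g2⁻¹))))))) := by
            rw [← mul_assoc g1 z1⁻¹, c1 g1, mul_assoc z1⁻¹ g1]
        _ = X * (g1 * (z2 * (g2 * (z2⁻¹ * (g1⁻¹ * g2⁻¹))))) := by
            rw [mul_inv_cancel_left, ← mul_assoc g1⁻¹ z2⁻¹, c2 g1⁻¹, mul_assoc z2⁻¹ g1⁻¹]
        _ = X * (g1 * (z2 * (z2⁻¹ * (g2 * (g1⁻¹ * g2⁻¹))))) := by
            rw [← mul_assoc g2 z2⁻¹, c2 g2, mul_assoc z2⁻¹ g2]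
        _ = X * (g1 * g2 * g1⁻¹ * g2⁻¹) := by rw [mul_inv_cancel_left]; group
    calc g * X = (g1 * g2 * g1⁻¹ * g2⁻¹) * (((g1 * g2 * g1⁻¹ * g2⁻¹)⁻¹ * g) * X) := by group
      _ = ((g1 * g2 * g1⁻¹ * g2⁻¹) * X) * ((g1 * g2 * g1⁻¹ * g2⁻¹)⁻¹ * g) := by rw [← h3' X]; group
      _ = X * g := by rw [h4]; group
  have hKtop : K = ⊤ := by
    have hcP : Nat.card {t // P t} + 3 = Nat.card α := by
      have h1 : Fintype.card {t // ¬ P t} = 3 := by
        have : (Finset.univ.filter fun t => ¬ P t) = {p, q, r} := by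
          ext t
          simp only [P, Finset.mem_filter, Finset.mem_univ, true_and, Finset.mem_insert, Finset.mem_singleton]
          tauto
        rw [Fintype.card_subtype, this]
        rw [Finset.card_insert_of_notMem, Finset.card_insert_of_notMem, Finset.card_singleton]
        · simpa using hqr
        · simp [hpq, hpr]
      have h2 := Fintype.card_subtype_compl P
      have h3 := Fintype.card_subtype_le P
      rw [Nat.card_eq_fintype_card, Nat.card_eq_fintype_card]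
      omega
    rcases hcard with h5 | h8
    · have h6 : Nat.card (alternatingGroup {t // P t}) = 1 := by
        have hc2 : Nat.card {t // P t} = 2 := by omega
        have hnt : Nontrivial {t // P t} := by
          rw [← Finite.one_lt_card_iff_nontrivial]; omega
        have h7 := nat_card_alternatingGroup (α := {t // P t})
        rw [hc2] at h7
        simpa using h7
      rw [eq_top_iff]
      intro x _
      haveI := (Nat.card_eq_one_iff_unique.1 h6).1
      rw [Subsingleton.elim x 1]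
      exact one_mem _
    · rw [eq_top_iff, ← commutator_alternatingGroup_eq_top (α := {t // P t}) (by omega)]
      exact hcommK
  -- apply it
  have hiff : ∀ t, P (π h t) ↔ P t := by
    intro t
    have hinj := (π h).injective
    have e1 : π h t = p ↔ t = p := ⟨fun hh => hinj (hh.trans hp.symm), fun hh => by rw [hh, hp]⟩
    have e2 : π h t = q ↔ t = q := ⟨fun hh => hinj (hh.trans hq.symm), fun hh => by rw [hh, hq]⟩
    have e3 : π h t = r ↔ t = r := ⟨fun hh => hinj (hh.trans hr.symm), fun hh => by rw [hh, hr]⟩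
    simp only [P, ne_eq, e1, e2, e3]
  have hmoved : ∀ t, π h t ≠ t → P t := by
    intro t ht
    refine ⟨?_, ?_, ?_⟩ <;> rintro rfl <;> contradiction
  have h7 := Perm.ofSubtype_subtypePerm hiff hmoved
  have h8 : Perm.sign ((π h).subtypePerm (fun t => (hiff t))) = 1 := by
    rw [← Perm.sign_ofSubtype, h7]; exact hev h
  have h9 : (⟨(π h).subtypePerm (fun t => (hiff t)), h8⟩ : alternatingGroup {t // P t}) ∈ K := by
    rw [hKtop]; trivial
  exact h9 h h7.symm

theorem commute_of_commute (π : Γ →* Perm α) (hcen : ∀ z, π z = 1 → z ∈ center Γ)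
    (hsurj : ∀ σ : Perm α, Perm.sign σ = 1 → ∃ g, π g = σ) (hev : ∀ g, Perm.sign (π g) = 1)
    (hcard : Nat.card α = 5 ∨ 8 ≤ Nat.card α)
    {p q r : α} (hpq : p ≠ q) (hpr : p ≠ r) (hqr : q ≠ r) {X : Γ} (hX : π X = c3 p q r)
    {h : Γ} (hh : π h * c3 p q r * (π h)⁻¹ = c3 p q r) : h * X = X * h := by
  have hxp : c3 p q r p = q := by
    rw [c3, Perm.mul_apply, swap_apply_of_ne_of_ne hpq hpr, swap_apply_left]
  have hxq : c3 p q r q = r := by
    rw [c3, Perm.mul_apply, swap_apply_left, swap_apply_of_ne_of_ne hpr.symm hqr.symm]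
  have hxr : c3 p q r r = p := by
    rw [c3, Perm.mul_apply, swap_apply_right, swap_apply_right]
  have hxt : ∀ t, t ≠ p → t ≠ q → t ≠ r → c3 p q r t = t := by
    intro t h1 h2 h3
    rw [c3, Perm.mul_apply, swap_apply_of_ne_of_ne h2 h3, swap_apply_of_ne_of_ne h1 h2]
  have hc : ∀ t, π h (c3 p q r t) = c3 p q r (π h t) := by
    intro t
    have h1 : π h * c3 p q r = c3 p q r * π h := by
      rw [mul_inv_eq_iff_eq_mul] at hh; exact hh
    exact congrArg (fun f : Perm α => f t) h1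
  have h1 : π h p = p ∨ π h p = q ∨ π h p = r := by
    by_contra hcon
    push Not at hcon
    have h2 := hc p
    rw [hxp, hxt _ hcon.1 hcon.2.1 hcon.2.2] at h2
    exact hpq ((π h).injective h2).symm
  -- reduce to an element fixing p, q, r
  have key : ∀ k : ℕ, π (X ^ k * h) p = p → (X ^ k * h) * X = X * (X ^ k * h) := by
    intro k hk
    have hc' : ∀ t, π (X ^ k * h) (c3 p q r t) = c3 p q r (π (X ^ k * h) t) := by
      intro t
      rw [map_mul, map_pow, hX, Perm.mul_apply, hc, Perm.mul_apply, ← Perm.mul_apply, ← Perm.mul_apply (c3 p q r),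
        ← pow_succ, ← pow_succ']
    have hq' : π (X ^ k * h) q = q := by
      have := hc' p
      rwa [hxp, hk, hxp] at this
    have hr' : π (X ^ k * h) r = r := by
      have := hc' q
      rwa [hxq, hq', hxq] at this
    exact commute_of_fix π hcen hsurj hev hcard hpq hpr hqr hX hk hq' hr'
  have key2 : ∀ k : ℕ, π (X ^ k * h) p = p → h * X = X * h := by
    intro k hk
    have h3 := key k hk
    have h4 : X ^ k * (h * X) = X ^ k * (X * h) := by
      rw [← mul_assoc, h3, ← mul_assoc, ← mul_assoc, ← pow_succ', ← pow_succ]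
    exact mul_left_cancel h4
  rcases h1 with h1 | h1 | h1
  · exact key2 0 (by simpa using h1)
  · refine key2 2 ?_
    rw [map_mul, map_pow, hX, Perm.mul_apply, h1, pow_two, Perm.mul_apply, hxq, hxr]
  · refine key2 1 ?_
    rw [map_mul, map_pow, hX, Perm.mul_apply, h1, pow_one, hxr]

/-- compatible lifts of the 3-cycles `(p q a)` -/
theorem package (π : Γ →* Perm α) (hcen : ∀ z, π z = 1 → z ∈ center Γ)
    (hsurj : ∀ σ : Perm α, Perm.sign σ = 1 → ∃ g, π g = σ) (hev : ∀ g, Perm.sign (π g) = 1)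
    (hcard : Nat.card α = 5 ∨ 8 ≤ Nat.card α)
    {p q r s w : α} (hpq : p ≠ q) (hpr : p ≠ r) (hqr : q ≠ r) (hps : p ≠ s) (hqs : q ≠ s) (hrs : r ≠ s)
    (hpw : p ≠ w) (hqw : q ≠ w) (hrw : r ≠ w) (hsw : s ≠ w) :
    ∃ (X : α → Γ) (b : Γ), b ∈ center Γ ∧ π b = 1 ∧ b ^ 2 = 1 ∧
      (∀ a, a ≠ p → a ≠ q → π (X a) = c3 p q a ∧ X a ^ 3 = 1) ∧
      (∀ a c, a ≠ p → a ≠ q → c ≠ p → c ≠ q → a ≠ c → (X a * X c) ^ 2 = b) ∧
      (∀ g a c, a ≠ p → a ≠ q → c ≠ p → c ≠ q → π g p = p → π g q = q → π g a = c → g * X a * g⁻¹ = X c) ∧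
      (∀ g a c, a ≠ p → a ≠ q → c ≠ p → c ≠ q → π g p = q → π g q = p → π g a = c →
        g * X a * g⁻¹ = (X c)⁻¹) := by
  classical
  obtain ⟨X, hX, hX3, g0, hg0, hg0'⟩ := exists_lift π hcen hsurj hpq hpr hqr hps hqs hrs hpw hqw hrw hsw
  -- the class of `X`
  have hE : ∀ g h : Γ, π g * c3 p q r * (π g)⁻¹ = π h * c3 p q r * (π h)⁻¹ → g * X * g⁻¹ = h * X * h⁻¹ := by
    intro g h hgh
    have h1 : π (h⁻¹ * g) * c3 p q r * (π (h⁻¹ * g))⁻¹ = c3 p q r := by
      rw [map_mul, map_inv]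
      calc (π h)⁻¹ * π g * c3 p q r * ((π h)⁻¹ * π g)⁻¹ = (π h)⁻¹ * (π g * c3 p q r * (π g)⁻¹) * π h := by group
        _ = c3 p q r := by rw [hgh]; group
    have h2 := commute_of_commute π hcen hsurj hev hcard hpq hpr hqr hX h1
    calc g * X * g⁻¹ = h * ((h⁻¹ * g) * X) * g⁻¹ := by group
      _ = h * X * h⁻¹ := by rw [h2]; group
  have hE' : ∀ g h : Γ, π g * c3 p q r * (π g)⁻¹ = (π h * c3 p q r * (π h)⁻¹)⁻¹ →
      g * X * g⁻¹ = (h * X * h⁻¹)⁻¹ := by
    intro g h hgh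
    have h1 : (h * X * h⁻¹)⁻¹ = (h * g0) * X * (h * g0)⁻¹ := by
      calc (h * X * h⁻¹)⁻¹ = h * X⁻¹ * h⁻¹ := by group
        _ = h * (g0 * X * g0⁻¹) * h⁻¹ := by rw [hg0']
        _ = _ := by group
    rw [h1]
    apply hE
    have h2 : π g0 * c3 p q r * (π g0)⁻¹ = (c3 p q r)⁻¹ := by
      rw [← hX, ← map_inv, ← map_mul, ← map_mul, hg0', map_inv]
    rw [hgh, map_mul]
    calc (π h * c3 p q r * (π h)⁻¹)⁻¹ = π h * (c3 p q r)⁻¹ * (π h)⁻¹ := by group
      _ = π h * (π g0 * c3 p q r * (π g0)⁻¹) * (π h)⁻¹ := by rw [h2]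
      _ = _ := by group
  -- transporters
  have htr : ∀ a : α, a ≠ p → a ≠ q → ∃ g : Γ, π g p = p ∧ π g q = q ∧ π g r = a := by
    intro a hap haq
    by_cases har : a = r
    · subst har
      exact ⟨1, by simp, by simp, by simp⟩
    · -- another point
      obtain ⟨t, htp, htq, htr, hta⟩ : ∃ t, t ≠ p ∧ t ≠ q ∧ t ≠ r ∧ t ≠ a := by
        by_cases has : a = s
        · exact ⟨w, hpw.symm, hqw.symm, hrw.symm, by rw [has]; exact hsw.symm⟩
        · exact ⟨s, hps.symm, hqs.symm, hrs.symm, fun h => has h.symm⟩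
      obtain ⟨g, hg⟩ := hsurj (c3 r a t) (sign_c3 (fun h => har h.symm) (fun h => hta h.symm))
      refine ⟨g, ?_, ?_, ?_⟩
      · rw [hg, c3, Perm.mul_apply, swap_apply_of_ne_of_ne hap.symm htp.symm,
          swap_apply_of_ne_of_ne hpr hap.symm]
      · rw [hg, c3, Perm.mul_apply, swap_apply_of_ne_of_ne haq.symm htq.symm,
          swap_apply_of_ne_of_ne hqr haq.symm]
      · rw [hg, c3, Perm.mul_apply, swap_apply_of_ne_of_ne (fun h => har h.symm) htr.symm, swap_apply_left]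
  choose! G hGp hGq hGr using htr
  have hG : ∀ a, a ≠ p → a ≠ q → π (G a) * c3 p q r * (π (G a))⁻¹ = c3 p q a := by
    intro a h1 h2
    rw [conj_c3, hGp a h1 h2, hGq a h1 h2, hGr a h1 h2]
  have h3 : ∀ g a c, a ≠ p → a ≠ q → c ≠ p → c ≠ q → π g p = p → π g q = q → π g a = c →
      g * (G a * X * (G a)⁻¹) * g⁻¹ = G c * X * (G c)⁻¹ := by
    intro g a c hap haq hcp hcq hgp hgq hga
    have e : g * (G a * X * (G a)⁻¹) * g⁻¹ = (g * G a) * X * (g * G a)⁻¹ := by group
    rw [e]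
    apply hE
    rw [hG c hcp hcq, map_mul]
    calc π g * π (G a) * c3 p q r * (π g * π (G a))⁻¹ = π g * (π (G a) * c3 p q r * (π (G a))⁻¹) * (π g)⁻¹ := by group
      _ = c3 p q c := by rw [hG a hap haq, conj_c3, hgp, hgq, hga]
  have h4 : ∀ g a c, a ≠ p → a ≠ q → c ≠ p → c ≠ q → π g p = q → π g q = p → π g a = c →
      g * (G a * X * (G a)⁻¹) * g⁻¹ = (G c * X * (G c)⁻¹)⁻¹ := by
    intro g a c hap haq hcp hcq hgp hgq hga
    have e : g * (G a * X * (G a)⁻¹) * g⁻¹ = (g * G a) * X * (g * G a)⁻¹ := by group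
    rw [e]
    apply hE'
    rw [hG c hcp hcq, map_mul]
    calc π g * π (G a) * c3 p q r * (π g * π (G a))⁻¹ = π g * (π (G a) * c3 p q r * (π (G a))⁻¹) * (π g)⁻¹ := by group
      _ = (c3 p q c)⁻¹ := by rw [hG a hap haq, conj_c3, hgp, hgq, hga, c3_inv hcp.symm hcq.symm]
  have hπX : ∀ a, a ≠ p → a ≠ q → π (G a * X * (G a)⁻¹) = c3 p q a := by
    intro a h1 h2
    rw [map_mul, map_mul, map_inv, hX, hG a h1 h2]
  set b : Γ := ((G r * X * (G r)⁻¹) * (G s * X * (G s)⁻¹)) ^ 2 with hb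
  have hπb : π b = 1 := by
    rw [hb, map_pow, map_mul, hπX r hpr.symm hqr.symm, hπX s hps.symm hqs.symm,
      c3_mul_sq hpq hpr hqr hps hrs]
  have hbc : b ∈ center Γ := hcen b hπb
  have hbc' : ∀ g, g * b * g⁻¹ = b := by
    intro g
    rw [Subgroup.mem_center_iff.1 hbc g]; group
  have h5 : ∀ a c, a ≠ p → a ≠ q → c ≠ p → c ≠ q → a ≠ c →
      ((G a * X * (G a)⁻¹) * (G c * X * (G c)⁻¹)) ^ 2 = b := by
    intro a c hap haq hcp hcq hac
    -- a permutation fixing p, q and mapping r to a, s to c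
    obtain ⟨τ, hτp, hτq, hτr, hτs⟩ : ∃ τ : Perm α, τ p = p ∧ τ q = q ∧ τ r = a ∧ τ s = c := by
      set s1 : α := swap r a s with hs1
      have hs1a : s1 ≠ a := by
        intro h
        have : swap r a s = swap r a r := by rw [swap_apply_left]; exact h
        exact hrs ((swap r a).injective this).symm
      have hs1p : p ≠ s1 := by
        intro h
        have : swap r a p = swap r a s := by rw [swap_apply_of_ne_of_ne hpr hap.symm]; exact h
        exact hps ((swap r a).injective this)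
      have hs1q : q ≠ s1 := by
        intro h
        have : swap r a q = swap r a s := by rw [swap_apply_of_ne_of_ne hqr haq.symm]; exact h
        exact hqs ((swap r a).injective this)
      refine ⟨swap s1 c * swap r a, ?_, ?_, ?_, ?_⟩
      · rw [Perm.mul_apply, swap_apply_of_ne_of_ne hpr hap.symm, swap_apply_of_ne_of_ne hs1p hcp.symm]
      · rw [Perm.mul_apply, swap_apply_of_ne_of_ne hqr haq.symm, swap_apply_of_ne_of_ne hs1q hcq.symm]
      · rw [Perm.mul_apply, swap_apply_left, swap_apply_of_ne_of_ne hs1a.symm hac]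
      · rw [Perm.mul_apply, ← hs1, swap_apply_left]
    rcases Int.units_eq_one_or (Perm.sign τ) with h | h
    · obtain ⟨g, hg⟩ := hsurj τ h
      have e1 := h3 g r a hpr.symm hqr.symm hap haq (by rw [hg]; exact hτp) (by rw [hg]; exact hτq) (by rw [hg]; exact hτr)
      have e2 := h3 g s c hps.symm hqs.symm hcp hcq (by rw [hg]; exact hτp) (by rw [hg]; exact hτq) (by rw [hg]; exact hτs)
      rw [← e1, ← e2, ← conj_mul', conj_pow, ← hb, hbc']
    · obtain ⟨g, hg⟩ := hsurj (τ * swap r s) (by rw [map_mul, h, sign_swap hrs]; rfl)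
      have e1 := h3 g r c hpr.symm hqr.symm hcp hcq
        (by rw [hg, Perm.mul_apply, swap_apply_of_ne_of_ne hpr hps]; exact hτp)
        (by rw [hg, Perm.mul_apply, swap_apply_of_ne_of_ne hqr hqs]; exact hτq)
        (by rw [hg, Perm.mul_apply, swap_apply_left]; exact hτs)
      have e2 := h3 g s a hps.symm hqs.symm hap haq
        (by rw [hg, Perm.mul_apply, swap_apply_of_ne_of_ne hpr hps]; exact hτp)
        (by rw [hg, Perm.mul_apply, swap_apply_of_ne_of_ne hqr hqs]; exact hτq)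
        (by rw [hg, Perm.mul_apply, swap_apply_right]; exact hτr)
      have e3 : ((G c * X * (G c)⁻¹) * (G a * X * (G a)⁻¹)) ^ 2 = b := by
        rw [← e1, ← e2, ← conj_mul', conj_pow, ← hb, hbc']
      have e4 : ((G a * X * (G a)⁻¹) * (G c * X * (G c)⁻¹)) ^ 2 =
          (G a * X * (G a)⁻¹) * ((G c * X * (G c)⁻¹) * (G a * X * (G a)⁻¹)) ^ 2 * (G a * X * (G a)⁻¹)⁻¹ := by
        simp only [pow_two]; group
      rw [e4, e3, hbc']
  refine ⟨fun a => G a * X * (G a)⁻¹, b, hbc, hπb, ?_, ?_, h5, h3, h4⟩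
  · obtain ⟨g, hg⟩ := hsurj (swap p q * swap r s) (by rw [map_mul, sign_swap hpq, sign_swap hrs]; rfl)
    have e1 := h4 g r s hpr.symm hqr.symm hps.symm hqs.symm
      (by rw [hg, Perm.mul_apply, swap_apply_of_ne_of_ne hpr hps, swap_apply_left])
      (by rw [hg, Perm.mul_apply, swap_apply_of_ne_of_ne hqr hqs, swap_apply_right])
      (by rw [hg, Perm.mul_apply, swap_apply_left, swap_apply_of_ne_of_ne hps.symm hqs.symm])
    have e2 := h4 g s r hps.symm hqs.symm hpr.symm hqr.symm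
      (by rw [hg, Perm.mul_apply, swap_apply_of_ne_of_ne hpr hps, swap_apply_left])
      (by rw [hg, Perm.mul_apply, swap_apply_of_ne_of_ne hqr hqs, swap_apply_right])
      (by rw [hg, Perm.mul_apply, swap_apply_right, swap_apply_of_ne_of_ne hpr.symm hqr.symm])
    have e3 : b = b⁻¹ := by
      calc b = g * b * g⁻¹ := (hbc' g).symm
        _ = (g * (G r * X * (G r)⁻¹) * g⁻¹ * (g * (G s * X * (G s)⁻¹) * g⁻¹)) ^ 2 := by
            rw [← conj_mul', conj_pow]
        _ = ((G s * X * (G s)⁻¹)⁻¹ * (G r * X * (G r)⁻¹)⁻¹) ^ 2 := by rw [e1, e2]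
        _ = b⁻¹ := by rw [← mul_inv_rev, inv_pow]
    rw [pow_two]
    nth_rewrite 2 [e3]
    exact mul_inv_cancel b
  · intro a h1 h2
    refine ⟨hπX a h1 h2, ?_⟩
    rw [conj_pow, hX3]; group

end Lift

end Cfsg.Agent.H73.AltMult
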