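import Cfsg.Agent.H73.AltMult
set_option autoImplicit false
set_option linter.unusedSectionVars false
open Equiv Equiv.Perm Subgroup
namespace Cfsg.Agent.H73.AltMult

section Final

open Cfsg.Agent.H73.MooreAlt Cfsg.Agent.ThreeTransp

/-- words in a group with the relations of the `X a` -/
theorem mo_of {H : Type*} [Group H] {m : ℕ} (Y : Fin (m + 2 + 1) → H)
    (hcube : ∀ a : Fin (m + 2 + 1), 2 ≤ a.val → Y a ^ 3 = 1)
    (hsq : ∀ a c : Fin (m + 2 + 1), 2 ≤ a.val → 2 ≤ c.val → a ≠ c → (Y a * Y c) ^ 2 = 1)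
    (hT : ∀ a c e : Fin (m + 2 + 1), 2 ≤ a.val → 2 ≤ c.val → a ≠ c → 2 ≤ e.val → e ≠ a → e ≠ c →
      ((Y a)⁻¹ * Y c * (Y a)⁻¹) * Y e * ((Y a)⁻¹ * Y c * (Y a)⁻¹)⁻¹ = (Y e)⁻¹)
    (hTa : ∀ a c : Fin (m + 2 + 1), 2 ≤ a.val → 2 ≤ c.val → a ≠ c →
      ((Y a)⁻¹ * Y c * (Y a)⁻¹) * Y a * ((Y a)⁻¹ * Y c * (Y a)⁻¹)⁻¹ = (Y c)⁻¹)
    (hTc : ∀ a c : Fin (m + 2 + 1), 2 ≤ a.val → 2 ≤ c.val → a ≠ c →
      ((Y a)⁻¹ * Y c * (Y a)⁻¹) * Y c * ((Y a)⁻¹ * Y c * (Y a)⁻¹)⁻¹ = (Y a)⁻¹) :
    Mo m (fun i : Fin (m + 1) => if i.val = 0 then Y ⟨2, by omega⟩ else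
      (Y ⟨i.val + 1, by omega⟩)⁻¹ * Y ⟨i.val + 2, by omega⟩ * (Y ⟨i.val + 1, by omega⟩)⁻¹) := by
  have hT2 : ∀ a c : Fin (m + 2 + 1), 2 ≤ a.val → 2 ≤ c.val → a ≠ c →
      ((Y a)⁻¹ * Y c * (Y a)⁻¹) ^ 2 = 1 := by
    intro a c ha hc hac
    have h1 := hsq c a hc ha hac.symm
    have h2 : (Y a)⁻¹ * (Y a)⁻¹ = Y a := by
      have := hcube a ha
      rw [← mul_inv_rev, inv_eq_iff_mul_eq_one]
      calc Y a * Y a * Y a = Y a ^ 3 := by rw [pow_succ, pow_two]
        _ = 1 := this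
    calc ((Y a)⁻¹ * Y c * (Y a)⁻¹) ^ 2 = (Y a)⁻¹ * Y c * ((Y a)⁻¹ * (Y a)⁻¹) * Y c * (Y a)⁻¹ := by
          rw [pow_two]; group
      _ = (Y a)⁻¹ * Y c * Y a * Y c * (Y a)⁻¹ := by rw [h2]
      _ = (Y a)⁻¹ * ((Y c * Y a) ^ 2) * ((Y a)⁻¹ * (Y a)⁻¹) := by rw [pow_two]; group
      _ = 1 := by rw [h1, h2]; group
  have hT2' : ∀ a c : Fin (m + 2 + 1), 2 ≤ a.val → 2 ≤ c.val → a ≠ c →
      ((Y a)⁻¹ * Y c * (Y a)⁻¹)⁻¹ = (Y a)⁻¹ * Y c * (Y a)⁻¹ := by
    intro a c ha hc hac
    rw [inv_eq_iff_mul_eq_one, ← pow_two]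
    exact hT2 a c ha hc hac
  constructor
  · simp only [Fin.val_zero, if_true]
    exact hcube _ (le_refl 2)
  · intro i hi
    have h0 : i.val ≠ 0 := by omega
    simp only [h0, if_false]
    refine hT2 _ _ ?_ ?_ ?_
    · change 2 ≤ i.val + 1; omega
    · change 2 ≤ i.val + 2; omega
    · intro h; have := congrArg Fin.val h; simp at this
  · intro i j hij
    have hj0 : j.val ≠ 0 := by omega
    simp only [hj0, if_false]
    by_cases hi : i.val = 0
    · simp only [hi, if_true]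
      have e1 : (⟨j.val + 1, by omega⟩ : Fin (m + 2 + 1)) = ⟨2, by omega⟩ := Fin.ext (by simp; omega)
      rw [e1]
      set a : Fin (m + 2 + 1) := ⟨2, by omega⟩ with ha
      set c : Fin (m + 2 + 1) := ⟨j.val + 2, by omega⟩ with hc
      have ha2 : 2 ≤ a.val := le_refl 2
      have hc2 : 2 ≤ c.val := by change 2 ≤ j.val + 2; omega
      have hac : a ≠ c := by
        intro h
        have : (2 : ℕ) = j.val + 2 := congrArg Fin.val h
        omega
      have e2 : Y a * ((Y a)⁻¹ * Y c * (Y a)⁻¹) = Y c * (Y a)⁻¹ := by group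
      rw [e2]
      have h1 := hsq c a hc2 ha2 hac.symm
      have h2 : (Y a)⁻¹ = Y c * Y a * Y c := by
        rw [inv_eq_iff_mul_eq_one]
        have h3 : Y c * Y a * Y c * Y a = 1 := by rw [mul_assoc (Y c * Y a), ← pow_two]; exact h1
        have h4 : Y a * (Y c * Y a * Y c) = (Y c)⁻¹ * (Y c * Y a * Y c * Y a) * Y c := by group
        rw [h4, h3]; group
      have h5 : Y c * Y c = (Y c)⁻¹ := by
        rw [eq_inv_iff_mul_eq_one]
        calc Y c * Y c * Y c = Y c ^ 3 := by rw [pow_succ, pow_two]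
          _ = 1 := hcube c hc2
      have h6 : Y c * (Y a)⁻¹ = (Y c)⁻¹ * Y a * (Y c)⁻¹⁻¹ := by
        rw [h2, ← h5]; 
        have : Y c * (Y c * Y a * Y c) = (Y c * Y c) * Y a * Y c := by group
        rw [this, h5, inv_inv]
      rw [h6, conj_pow, hcube a ha2]; group
    · simp only [hi, if_false]
      set a : Fin (m + 2 + 1) := ⟨i.val + 1, by omega⟩ with ha
      set c : Fin (m + 2 + 1) := ⟨i.val + 2, by omega⟩ with hc
      have e1 : (⟨j.val + 1, by omega⟩ : Fin (m + 2 + 1)) = c := Fin.ext (by simp [hc]; omega)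
      rw [e1]
      set e : Fin (m + 2 + 1) := ⟨j.val + 2, by omega⟩ with he
      have ha2 : 2 ≤ a.val := by change 2 ≤ i.val + 1; omega
      have hc2 : 2 ≤ c.val := by change 2 ≤ i.val + 2; omega
      have he2 : 2 ≤ e.val := by change 2 ≤ j.val + 2; omega
      have hac : a ≠ c := by
        intro h
        have : i.val + 1 = i.val + 2 := congrArg Fin.val h
        omega
      have hce : c ≠ e := by
        intro h
        have : i.val + 2 = j.val + 2 := congrArg Fin.val h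
        omega
      have hae : a ≠ e := by
        intro h
        have : i.val + 1 = j.val + 2 := congrArg Fin.val h
        omega
      set T : H := (Y a)⁻¹ * Y c * (Y a)⁻¹ with hTd
      set T' : H := (Y c)⁻¹ * Y e * (Y c)⁻¹ with hT'd
      have q1 : T * T' * T⁻¹ = Y a * (Y e)⁻¹ * Y a := by
        have : T * T' * T⁻¹ = (T * Y c * T⁻¹)⁻¹ * (T * Y e * T⁻¹) * (T * Y c * T⁻¹)⁻¹ := by rw [hT'd]; group
        rw [this, hTc a c ha2 hc2 hac, hT a c e ha2 hc2 hac he2 hae.symm hce.symm, inv_inv]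
      have q2 : T' * T * T'⁻¹ = Y a * (Y e)⁻¹ * Y a := by
        have : T' * T * T'⁻¹ = (T' * Y a * T'⁻¹)⁻¹ * (T' * Y c * T'⁻¹) * (T' * Y a * T'⁻¹)⁻¹ := by rw [hTd]; group
        rw [this, hTa c e hc2 he2 hce, hT c e a hc2 he2 hce ha2 hac hae, inv_inv]
      have i1 : T⁻¹ = T := hT2' a c ha2 hc2 hac
      have i2 : T'⁻¹ = T' := hT2' c e hc2 he2 hce
      have s2 : T' ^ 2 = 1 := hT2 c e hc2 he2 hce
      rw [i1] at q1
      rw [i2] at q2
      have : (T * T') ^ 3 = (T * T' * T) * (T' * T * T') := by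
        simp only [pow_succ, pow_zero, one_mul]; group
      rw [this, q2, ← q1]
      have s1 : T * T = 1 := by
        have := hT2 a c ha2 hc2 hac
        rwa [pow_two] at this
      calc T * T' * T * (T * T' * T) = T * T' * (T * T) * T' * T := by group
        _ = T * (T' ^ 2) * T := by rw [s1, pow_two]; group
        _ = 1 := by rw [s2, mul_one, s1]
  · intro i j hij
    have hj0 : j.val ≠ 0 := by omega
    simp only [hj0, if_false]
    set e : Fin (m + 2 + 1) := ⟨j.val + 1, by omega⟩ with he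
    set f : Fin (m + 2 + 1) := ⟨j.val + 2, by omega⟩ with hf
    have he2 : 2 ≤ e.val := by change 2 ≤ j.val + 1; omega
    have hf2 : 2 ≤ f.val := by change 2 ≤ j.val + 2; omega
    have hef : e ≠ f := by
      intro h
      have : j.val + 1 = j.val + 2 := congrArg Fin.val h
      omega
    set T' : H := (Y e)⁻¹ * Y f * (Y e)⁻¹ with hT'd
    have s2 : T' ^ 2 = 1 := hT2 e f he2 hf2 hef
    have i2 : T'⁻¹ = T' := hT2' e f he2 hf2 hef
    by_cases hi : i.val = 0
    · simp only [hi, if_true]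
      set a : Fin (m + 2 + 1) := ⟨2, by omega⟩ with ha
      have ha2 : 2 ≤ a.val := le_refl 2
      have hae : a ≠ e := by
        intro h
        have : (2 : ℕ) = j.val + 1 := congrArg Fin.val h
        omega
      have haf : a ≠ f := by
        intro h
        have : (2 : ℕ) = j.val + 2 := congrArg Fin.val h
        omega
      have q := hT e f a he2 hf2 hef ha2 hae haf
      rw [← hT'd] at q
      calc (Y a * T') ^ 2 = Y a * (T' * Y a * T'⁻¹) * (T' ^ 2) := by
            simp only [pow_two]; group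
        _ = 1 := by rw [q, s2]; group
    · simp only [hi, if_false]
      set a : Fin (m + 2 + 1) := ⟨i.val + 1, by omega⟩ with ha
      set c : Fin (m + 2 + 1) := ⟨i.val + 2, by omega⟩ with hc
      have ha2 : 2 ≤ a.val := by change 2 ≤ i.val + 1; omega
      have hc2 : 2 ≤ c.val := by change 2 ≤ i.val + 2; omega
      have hac : a ≠ c := by
        intro h
        have : i.val + 1 = i.val + 2 := congrArg Fin.val h
        omega
      have hea : e ≠ a := by
        intro h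
        have : j.val + 1 = i.val + 1 := congrArg Fin.val h
        omega
      have hec : e ≠ c := by
        intro h
        have : j.val + 1 = i.val + 2 := congrArg Fin.val h
        omega
      have hfa : f ≠ a := by
        intro h
        have : j.val + 2 = i.val + 1 := congrArg Fin.val h
        omega
      have hfc : f ≠ c := by
        intro h
        have : j.val + 2 = i.val + 2 := congrArg Fin.val h
        omega
      set T : H := (Y a)⁻¹ * Y c * (Y a)⁻¹ with hTd
      have i1 : T⁻¹ = T := hT2' a c ha2 hc2 hac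
      have q1 : T * T' * T⁻¹ = T'⁻¹ := by
        have : T * T' * T⁻¹ = (T * Y e * T⁻¹)⁻¹ * (T * Y f * T⁻¹) * (T * Y e * T⁻¹)⁻¹ := by rw [hT'd]; group
        rw [this, hT a c e ha2 hc2 hac he2 hea hec, hT a c f ha2 hc2 hac hf2 hfa hfc, hT'd]
        group
      rw [i1] at q1
      calc (T * T') ^ 2 = (T * T' * T) * T' := by rw [pow_two]; group
        _ = 1 := by rw [q1, inv_mul_cancel]

theorem card_le_two {m : ℕ} (hm : m + 3 = 5 ∨ 8 ≤ m + 3) {Γ : Type*} [Group Γ] [Finite Γ]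
    (π : Γ →* Perm (Fin (m + 2 + 1)))
    (hcen : ∀ z, π z = 1 → z ∈ center Γ) (hder : ∀ z, π z = 1 → z ∈ commutator Γ)
    (hsurj : ∀ σ : Perm (Fin (m + 2 + 1)), Perm.sign σ = 1 → ∃ g, π g = σ)
    (hev : ∀ g, Perm.sign (π g) = 1) : Nat.card π.ker ≤ 2 := by
  classical
  have hm2 : 2 ≤ m := by omega
  have hcard : Nat.card (Fin (m + 2 + 1)) = 5 ∨ 8 ≤ Nat.card (Fin (m + 2 + 1)) := by
    rw [Nat.card_fin]; omega
  have hne : ∀ i j : ℕ, (hi : i < m + 2 + 1) → (hj : j < m + 2 + 1) → i ≠ j →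
      (⟨i, hi⟩ : Fin (m + 2 + 1)) ≠ ⟨j, hj⟩ := fun i j hi hj hij h => hij (congrArg Fin.val h)
  obtain ⟨X, b, hbc, hπb, hb2, hX, hXX, h3, h4⟩ := package π hcen hsurj hev hcard
    (p := ⟨0, by omega⟩) (q := ⟨1, by omega⟩) (r := ⟨2, by omega⟩) (s := ⟨3, by omega⟩) (w := ⟨4, by omega⟩)
    (hne _ _ _ _ (by norm_num)) (hne _ _ _ _ (by norm_num)) (hne _ _ _ _ (by norm_num))
    (hne _ _ _ _ (by norm_num)) (hne _ _ _ _ (by norm_num)) (hne _ _ _ _ (by norm_num))
    (hne _ _ _ _ (by norm_num)) (hne _ _ _ _ (by norm_num)) (hne _ _ _ _ (by norm_num))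
    (hne _ _ _ _ (by norm_num))
  set P : Fin (m + 2 + 1) := ⟨0, by omega⟩ with hP
  set Q : Fin (m + 2 + 1) := ⟨1, by omega⟩ with hQ
  have hPQ : P ≠ Q := hne _ _ _ _ (by norm_num)
  have hneP : ∀ a : Fin (m + 2 + 1), 2 ≤ a.val → a ≠ P := by
    rintro a ha rfl
    exact absurd ha (by norm_num [hP])
  have hneQ : ∀ a : Fin (m + 2 + 1), 2 ≤ a.val → a ≠ Q := by
    rintro a ha rfl
    exact absurd ha (by norm_num [hQ])
  set B : Subgroup Γ := zpowers b with hB
  have hBc : B ≤ center Γ := by rwa [hB, zpowers_le]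
  haveI hBn : B.Normal := by
    constructor
    intro y hy g
    have := Subgroup.mem_center_iff.1 (hBc hy) g
    rw [this]; simpa using hy
  have hBk : B ≤ π.ker := by rw [hB, zpowers_le, MonoidHom.mem_ker]; exact hπb
  let mk : Γ →* Γ ⧸ B := QuotientGroup.mk' B
  have hmkb : mk b = 1 := (QuotientGroup.eq_one_iff b).2 (mem_zpowers b)
  set Y : Fin (m + 2 + 1) → Γ ⧸ B := fun a => mk (X a) with hY
  -- the words `T`
  have hπT : ∀ a c : Fin (m + 2 + 1), 2 ≤ a.val → 2 ≤ c.val → a ≠ c →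
      π ((X a)⁻¹ * X c * (X a)⁻¹) = swap P Q * swap a c := by
    intro a c ha hc hac
    rw [map_mul, map_mul, map_inv, (hX a (hneP a ha) (hneQ a ha)).1, (hX c (hneP c hc) (hneQ c hc)).1,
      c3_word hPQ (hneP a ha).symm (hneQ a ha).symm (hneP c hc).symm (hneQ c hc).symm hac]
  have hMo := mo_of Y (fun a ha => by
      rw [hY]
      change mk (X a) ^ 3 = 1
      rw [← map_pow, (hX a (hneP a ha) (hneQ a ha)).2, map_one])
    (fun a c ha hc hac => by
      change (mk (X a) * mk (X c)) ^ 2 = 1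
      rw [← map_mul, ← map_pow, hXX a c (hneP a ha) (hneQ a ha) (hneP c hc) (hneQ c hc) hac, hmkb])
    (fun a c e ha hc hac he hea hec => by
      have h := h4 ((X a)⁻¹ * X c * (X a)⁻¹) e e (hneP e he) (hneQ e he) (hneP e he) (hneQ e he)
        (by rw [hπT a c ha hc hac, Perm.mul_apply, swap_apply_of_ne_of_ne (hneP a ha).symm (hneP c hc).symm, swap_apply_left])
        (by rw [hπT a c ha hc hac, Perm.mul_apply, swap_apply_of_ne_of_ne (hneQ a ha).symm (hneQ c hc).symm, swap_apply_right])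
        (by rw [hπT a c ha hc hac, Perm.mul_apply, swap_apply_of_ne_of_ne hea hec, swap_apply_of_ne_of_ne (hneP e he) (hneQ e he)])
      have h' := congrArg mk h
      simpa only [map_mul, map_inv] using h')
    (fun a c ha hc hac => by
      have h := h4 ((X a)⁻¹ * X c * (X a)⁻¹) a c (hneP a ha) (hneQ a ha) (hneP c hc) (hneQ c hc)
        (by rw [hπT a c ha hc hac, Perm.mul_apply, swap_apply_of_ne_of_ne (hneP a ha).symm (hneP c hc).symm, swap_apply_left])
        (by rw [hπT a c ha hc hac, Perm.mul_apply, swap_apply_of_ne_of_ne (hneQ a ha).symm (hneQ c hc).symm, swap_apply_right])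
        (by rw [hπT a c ha hc hac, Perm.mul_apply, swap_apply_left, swap_apply_of_ne_of_ne (hneP c hc) (hneQ c hc)])
      have h' := congrArg mk h
      simpa only [map_mul, map_inv] using h')
    (fun a c ha hc hac => by
      have h := h4 ((X a)⁻¹ * X c * (X a)⁻¹) c a (hneP c hc) (hneQ c hc) (hneP a ha) (hneQ a ha)
        (by rw [hπT a c ha hc hac, Perm.mul_apply, swap_apply_of_ne_of_ne (hneP a ha).symm (hneP c hc).symm, swap_apply_left])
        (by rw [hπT a c ha hc hac, Perm.mul_apply, swap_apply_of_ne_of_ne (hneQ a ha).symm (hneQ c hc).symm, swap_apply_right])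
        (by rw [hπT a c ha hc hac, Perm.mul_apply, swap_apply_right, swap_apply_of_ne_of_ne (hneP a ha) (hneQ a ha)])
      have h' := congrArg mk h
      simpa only [map_mul, map_inv] using h')
  -- the homomorphism from Moore's group
  set F : PG m →* Γ ⧸ B := hom hMo with hF
  let πq : Γ ⧸ B →* Perm (Fin (m + 2 + 1)) := QuotientGroup.lift B π (fun y hy => hBk hy)
  have hπq : ∀ g : Γ, πq (mk g) = π g := fun g => rfl
  have hcomp : πq.comp F = (alternatingGroup (Fin (m + 2 + 1))).subtype.comp toAlt := by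
    apply hom_ext'
    intro i
    rw [MonoidHom.comp_apply, MonoidHom.comp_apply, Subgroup.coe_subtype, toAlt_coe, hF, hom_gen, hom_gen]
    by_cases hi : i.val = 0
    · simp only [hi, if_true]
      change π (X ⟨2, by omega⟩) = _
      rw [(hX _ (hneP _ (le_refl 2)) (hneQ _ (le_refl 2))).1, c3, img, hi]
      simp only [adj, show 0 < m + 2 from by omega, show 0 + 1 < m + 2 from by omega, dif_pos]
      rfl
    · simp only [hi, if_false]
      change π ((X ⟨i.val + 1, by omega⟩)⁻¹ * X ⟨i.val + 2, by omega⟩ * (X ⟨i.val + 1, by omega⟩)⁻¹) = _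
      rw [hπT _ _ (by change 2 ≤ i.val + 1; omega) (by change 2 ≤ i.val + 2; omega)
        (hne _ _ _ _ (by omega)), img]
      simp only [adj, show 0 < m + 2 from by omega, show i.val + 1 < m + 2 from by omega, dif_pos]
      rfl
  have hinj : Function.Injective (toAlt (m := m)) := by
    haveI := (card_le (m := m)).1
    obtain ⟨e⟩ := iso (m := m)
    exact ((Nat.bijective_iff_surjective_and_card _).2 ⟨toAlt_surjective, Nat.card_congr e.toEquiv⟩).1
  have hFsurj : ∀ x : Γ ⧸ B, ∃ y, πq (F y) = πq x := by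
    intro x
    obtain ⟨g, rfl⟩ := QuotientGroup.mk'_surjective B x
    obtain ⟨y, hy⟩ := toAlt_surjective (m := m) ⟨π g, hev g⟩
    refine ⟨y, ?_⟩
    have h := DFunLike.congr_fun hcomp y
    rw [MonoidHom.comp_apply, MonoidHom.comp_apply, hy] at h
    exact h
  have hzc : ∀ x : Γ ⧸ B, πq x = 1 → ∀ y, y * x = x * y := by
    intro x hx y
    obtain ⟨g, rfl⟩ := QuotientGroup.mk'_surjective B x
    obtain ⟨g', rfl⟩ := QuotientGroup.mk'_surjective B y
    have := Subgroup.mem_center_iff.1 (hcen g hx) g'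
    rw [← map_mul, ← map_mul, this]
  have hcomm : commutator (Γ ⧸ B) ≤ F.range := by
    rw [commutator_def, Subgroup.commutator_le]
    intro x _ y _
    obtain ⟨u, hu⟩ := hFsurj x
    obtain ⟨v, hv⟩ := hFsurj y
    have h1 := hzc ((F u)⁻¹ * x) (by rw [map_mul, map_inv, hu, inv_mul_cancel])
    have h2 := hzc ((F v)⁻¹ * y) (by rw [map_mul, map_inv, hv, inv_mul_cancel])
    set z1 := (F u)⁻¹ * x with hz1
    set z2 := (F v)⁻¹ * y with hz2
    have ex : x = F u * z1 := by rw [hz1]; group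
    have ey : y = F v * z2 := by rw [hz2]; group
    have key : x * y * x⁻¹ * y⁻¹ = F u * F v * (F u)⁻¹ * (F v)⁻¹ := by
      rw [ex, ey]
      have c1 : ∀ w, Commute w z1 := h1
      have c2 : ∀ w, Commute w z2 := h2
      calc F u * z1 * (F v * z2) * (F u * z1)⁻¹ * (F v * z2)⁻¹
          = F u * (z1 * (F v * z2)) * z1⁻¹ * ((F u)⁻¹ * z2⁻¹) * (F v)⁻¹ := by group
        _ = F u * ((F v * z2) * z1) * z1⁻¹ * (z2⁻¹ * (F u)⁻¹) * (F v)⁻¹ := by
            rw [← (c1 (F v * z2)).eq, ((c2 (F u)).inv_left.inv_right).eq]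
        _ = _ := by group
    change x * y * x⁻¹ * y⁻¹ ∈ F.range
    rw [key, ← map_inv, ← map_inv, ← map_mul, ← map_mul, ← map_mul]
    exact ⟨_, rfl⟩
  have hle : π.ker ≤ B := by
    intro z hz
    have h1 : mk z ∈ commutator (Γ ⧸ B) := by
      have h2 := Subgroup.map_commutator ⊤ ⊤ mk
      have h3 : mk z ∈ (commutator Γ).map mk := ⟨z, hder z hz, rfl⟩
      rw [_root_.commutator_def, h2] at h3
      exact Subgroup.commutator_mono le_top le_top h3
    obtain ⟨y, hy⟩ := hcomm h1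
    have h4 := DFunLike.congr_fun hcomp y
    rw [MonoidHom.comp_apply, MonoidHom.comp_apply, hy, hπq, (MonoidHom.mem_ker).1 hz] at h4
    have h5 : toAlt y = 1 := Subtype.ext h4.symm
    have h6 : y = 1 := hinj (by rw [h5, map_one])
    rw [h6, map_one] at hy
    exact (QuotientGroup.eq_one_iff z).1 hy.symm
  calc Nat.card π.ker ≤ Nat.card B := Subgroup.card_le_of_le hle
    _ = orderOf b := by rw [hB, Nat.card_zpowers]
    _ ≤ 2 := Nat.le_of_dvd (by norm_num) (orderOf_dvd_of_pow_eq_one hb2)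

end Final

end Cfsg.Agent.H73.AltMult
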