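import Cfsg.Agent.Solv.Core
import Cfsg.Agent.Extra.Basic
import Cfsg.Prelude.Def_MonsterType

/-!
The centralizer of a transvection over the field with two elements, in coordinates:
elements `mk A μ s c` with `A ∈ GL(W)`, `μ ∈ W*`, `s ∈ W`, `c ∈ F₂`.
-/

set_option autoImplicit false
set_option linter.unusedSectionVars false
set_option linter.unusedVariables false

namespace Cfsg.Agent.H73.Heis
open Subgroup Cfsg

abbrev F := ZMod 2

instance : Fact (Nat.Prime 2) := ⟨Nat.prime_two⟩

section two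

variable {W : Type*} [AddCommGroup W] [Module F W]

theorem two (a : F) : a = 0 ∨ a = 1 := by
  revert a; decide

theorem add_self (x : W) : x + x = 0 := by
  have h : ((1 : F) + 1) • x = 0 := by
    rw [show ((1 : F) + 1) = 0 from by decide, zero_smul]
  rwa [add_smul, one_smul] at h

theorem eq_of_add {x y : W} (h : x + y = 0) : x = y := by
  have h2 : x = -y := eq_neg_of_add_eq_zero_left h
  have h3 : -y = y := by
    have := add_self y
    exact (eq_neg_of_add_eq_zero_left this).symm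
  rw [h2, h3]

theorem add_add_self (x y : W) : x + y + y = x := by
  rw [add_assoc, add_self, add_zero]

theorem add_self_add (x y : W) : x + (x + y) = y := by
  rw [← add_assoc, add_self, zero_add]

/-- the transvection with functional `φ` and centre `t`. -/
noncomputable def tv (φ : W →ₗ[F] F) (t : W) (h : φ t = 0) : W ≃ₗ[F] W :=
  LinearEquiv.ofInvolutive (LinearMap.id + φ.smulRight t) (by
    intro x
    show (x + φ x • t) + φ (x + φ x • t) • t = x
    rw [map_add, map_smul, h, smul_zero, add_zero, add_assoc, add_self, add_zero])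

theorem tv_apply (φ : W →ₗ[F] F) (t : W) (h : φ t = 0) (x : W) : tv φ t h x = x + φ x • t := rfl

theorem exists_fun {x : W} {T : Submodule F W} (h : x ∉ T) :
    ∃ φ : W →ₗ[F] F, φ x = 1 ∧ ∀ y ∈ T, φ y = 0 := by
  obtain ⟨f, h1, h2⟩ := Submodule.exists_le_ker_of_notMem h
  exact ⟨f, (two (f x)).resolve_left h1, fun y hy => h2 hy⟩

theorem exists_fun' {x : W} (h : x ≠ 0) : ∃ φ : W →ₗ[F] F, φ x = 1 := by
  have : x ∉ (⊥ : Submodule F W) := by simpa using h
  obtain ⟨φ, h1, _⟩ := exists_fun this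
  exact ⟨φ, h1⟩

/-- an element of `GL(W)` with the property that its commutator with every transvection is a
`2`-element is trivial. -/
theorem eq_one_of_comm (A : W ≃ₗ[F] W)
    (h : ∀ B : W ≃ₗ[F] W, ∃ k : ℕ, (A * B * A⁻¹ * B⁻¹) ^ (2 ^ k) = 1) : A = 1 := by
  by_contra hA
  obtain ⟨t, ht⟩ : ∃ t, A t ≠ t := by
    by_contra hc
    push Not at hc
    exact hA (LinearEquiv.ext hc)
  have ht0 : t ≠ 0 := by rintro rfl; exact ht (map_zero A)
  have hAt0 : A t ≠ 0 := by simpa using ht0
  have hAi : A⁻¹ t ≠ t := by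
    intro h1
    apply ht
    have := congrArg A h1
    rw [show A (A⁻¹ t) = t from A.apply_symm_apply t] at this
    exact this.symm
  have hAi0 : A⁻¹ t ≠ 0 := by
    intro h1
    apply ht0
    have := congrArg A h1
    rwa [show A (A⁻¹ t) = t from A.apply_symm_apply t, map_zero] at this
  have hT : A t ∉ Submodule.span F {t, A t + A⁻¹ t} := by
    intro h1
    rw [Submodule.mem_span_pair] at h1
    obtain ⟨a, b, hab⟩ := h1
    rcases two a with ha | ha <;> rcases two b with hb | hb <;> subst ha <;> subst hb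
    · simp at hab; exact hAt0 hab.symm
    · simp at hab; exact ht0 hab
    · simp at hab; exact ht hab.symm
    · rw [one_smul, one_smul, add_left_comm] at hab
      have h2 : t + A⁻¹ t = 0 := by simpa using hab
      exact hAi (eq_of_add h2).symm
  obtain ⟨φ, h1, h2⟩ := exists_fun hT
  have hφt : φ t = 0 := h2 t (Submodule.subset_span (by simp))
  have hφi : φ (A⁻¹ t) = 1 := by
    have h3 := h2 (A t + A⁻¹ t) (Submodule.subset_span (by simp))
    rw [map_add, h1] at h3
    rcases two (φ (A⁻¹ t)) with h4 | h4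
    · rw [h4] at h3; simp at h3
    · exact h4
  set B := tv φ t hφt with hB
  have hB2 : ∀ x, B⁻¹ x = B x := by
    intro x
    have : B (B x) = x := by
      rw [hB, tv_apply, tv_apply, map_add, map_smul, hφt, smul_zero, add_zero, add_assoc, add_self,
        add_zero]
    have h4 : B⁻¹ (B (B x)) = B⁻¹ x := congrArg (fun y => B⁻¹ y) this
    rw [show B⁻¹ (B (B x)) = B x from B.symm_apply_apply (B x)] at h4
    exact h4.symm
  obtain ⟨k, hk⟩ := h B
  set D := A * B * A⁻¹ * B⁻¹ with hD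
  have hDa : ∀ x, D x = A (B (A⁻¹ (B⁻¹ x))) := fun x => rfl
  have hBt : B t = t := by rw [hB, tv_apply, hφt, zero_smul, add_zero]
  have hBA : B (A t) = A t + t := by rw [hB, tv_apply, h1, one_smul]
  have hBi : B (A⁻¹ t) = A⁻¹ t + t := by rw [hB, tv_apply, hφi, one_smul]
  have hAA : A (A⁻¹ t) = t := A.apply_symm_apply t
  have hAA' : A⁻¹ (A t) = t := A.symm_apply_apply t
  have e1 : D t = t + A t := by
    rw [hDa, hB2, hBt, hBi, map_add, hAA]
  have e2 : D (A t) = t := by
    rw [hDa, hB2, hBA, map_add, hAA', map_add, hBt, hBi, add_comm t, add_assoc, add_self, add_zero,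
      hAA]
  have e3 : D (D (D t)) = t := by
    rw [e1, map_add, e1, e2, map_add]
    have : t + A t + t = A t := by rw [add_comm t, add_assoc, add_self, add_zero]
    rw [← map_add, this, e2]
  have hp3 : ∀ q : ℕ, (D ^ (3 * q)) t = t := by
    intro q
    induction q with
    | zero => simp
    | succ q ih =>
      rw [show 3 * (q + 1) = 3 + 3 * q by ring, pow_add]
      show (D ^ 3) ((D ^ (3 * q)) t) = t
      rw [ih]
      exact e3
  have hne : D t ≠ t := by
    rw [e1]
    intro h5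
    exact hAt0 (by simpa using h5)
  have h3k : 2 ^ k % 3 = 1 ∨ 2 ^ k % 3 = 2 := by
    clear hk
    induction k with
    | zero => left; norm_num
    | succ k ih => rw [pow_succ]; omega
  have hkt : (D ^ (2 ^ k)) t = t := by rw [hk]; rfl
  rcases h3k with h3 | h3
  · have : 2 ^ k = 1 + 3 * (2 ^ k / 3) := by omega
    rw [this, pow_add] at hkt
    have h4 : (D ^ 1) ((D ^ (3 * (2 ^ k / 3))) t) = t := hkt
    rw [hp3, pow_one] at h4
    exact hne h4
  · have : 2 ^ k = 2 + 3 * (2 ^ k / 3) := by omega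
    rw [this, pow_add] at hkt
    have h4 : (D ^ 2) ((D ^ (3 * (2 ^ k / 3))) t) = t := hkt
    rw [hp3] at h4
    have h5 : D (D t) = t := h4
    apply hne
    have h6 := e3
    rw [h5] at h6
    exact h6

end two

structure HD (G W : Type*) [Group G] [AddCommGroup W] [Module F W] where
  el : (W ≃ₗ[F] W) → (W →ₗ[F] F) → W → F → G
  mul : ∀ A μ s c A' μ' s' c', el A μ s c * el A' μ' s' c' =
    el (A * A') (μ ∘ₗ (A' : W →ₗ[F] W) + μ') (A s' + s) (c + c' + μ s')
  inj : ∀ {A μ s c A' μ' s' c'}, el A μ s c = el A' μ' s' c' → A = A' ∧ μ = μ' ∧ s = s' ∧ c = c'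

namespace HD
variable {G W : Type*} [Group G] [AddCommGroup W] [Module F W] (D : HD G W)

theorem one : D.el 1 0 0 0 = 1 := by
  have h := D.mul 1 0 0 0 1 0 0 0
  have e : D.el (1 * 1) ((0 : W →ₗ[F] F) ∘ₗ ((1 : W ≃ₗ[F] W) : W →ₗ[F] W) + 0) ((1 : W ≃ₗ[F] W) 0 + 0)
      (0 + 0 + (0 : W →ₗ[F] F) 0) = D.el 1 0 0 0 := by
    congr 1 <;> simp
  rw [e] at h
  exact mul_eq_left.mp h

theorem mul1 (μ : W →ₗ[F] F) (s : W) (c : F) (μ' : W →ₗ[F] F) (s' : W) (c' : F) :
    D.el 1 μ s c * D.el 1 μ' s' c' = D.el 1 (μ + μ') (s + s') (c + c' + μ s') := by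
  rw [D.mul]
  congr 1
  exact add_comm _ _

theorem mul_z (A : W ≃ₗ[F] W) (μ : W →ₗ[F] F) (s : W) (c d : F) :
    D.el A μ s c * D.el 1 0 0 d = D.el A μ s (c + d) := by
  rw [D.mul]
  congr 1
  · ext x; simp
  · simp
  · simp

theorem z_mul (A : W ≃ₗ[F] W) (μ : W →ₗ[F] F) (s : W) (c d : F) :
    D.el 1 0 0 d * D.el A μ s c = D.el A μ s (c + d) := by
  rw [D.mul]
  congr 1
  · simp
  · simp
  · simp [add_comm]

variable {z : G} (hz : z = D.el 1 0 0 1)
include hz

theorem mem_cent (A : W ≃ₗ[F] W) (μ : W →ₗ[F] F) (s : W) (c : F) :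
    D.el A μ s c ∈ centralizer ({z} : Set G) := by
  rw [mem_centralizer_singleton_iff, hz, D.mul_z, D.z_mul]

variable (hC : ∀ g ∈ centralizer ({z} : Set G), ∃ A μ s c, g = D.el A μ s c)

/-- the action on `W`. -/
noncomputable def pi : ↥(centralizer ({z} : Set G)) →* (W ≃ₗ[F] W) where
  toFun g := (hC g.1 g.2).choose
  map_one' := by
    obtain ⟨μ, s, c, h⟩ := (hC 1 (one_mem _)).choose_spec
    exact (D.inj (D.one.trans h)).1.symm
  map_mul' x y := by
    obtain ⟨μ, s, c, h⟩ := (hC x.1 x.2).choose_spec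
    obtain ⟨μ', s', c', h'⟩ := (hC y.1 y.2).choose_spec
    obtain ⟨μ'', s'', c'', h''⟩ := (hC (x * y : ↥(centralizer ({z} : Set G))).1 (x * y).2).choose_spec
    have h3 : ((x * y : ↥(centralizer ({z} : Set G))) : G) = x.1 * y.1 := rfl
    have h4 := (D.mul _ μ s c _ μ' s' c').symm.trans
      ((congrArg₂ (· * ·) h.symm h'.symm).trans (h3.symm.trans h''))
    exact (D.inj h4).1.symm

omit hz in
theorem pi_mk {g : ↥(centralizer ({z} : Set G))} {A : W ≃ₗ[F] W} {μ : W →ₗ[F] F} {s : W} {c : F}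
    (h : (g : G) = D.el A μ s c) : D.pi hC g = A := by
  obtain ⟨μ', s', c', h'⟩ := (hC g.1 g.2).choose_spec
  exact (D.inj (h.symm.trans h')).1.symm

omit hz in
theorem mem_ker {g : ↥(centralizer ({z} : Set G))} :
    g ∈ (D.pi hC).ker ↔ ∃ μ s c, (g : G) = D.el 1 μ s c := by
  constructor
  · intro h
    obtain ⟨A, μ, s, c, h1⟩ := hC g.1 g.2
    have h2 := D.pi_mk hC h1
    rw [MonoidHom.mem_ker] at h
    rw [h] at h2
    subst h2
    exact ⟨μ, s, c, h1⟩
  · rintro ⟨μ, s, c, h1⟩
    exact D.pi_mk hC h1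

omit hz in
theorem pow_four (μ : W →ₗ[F] F) (s : W) (c : F) : (D.el 1 μ s c) ^ 4 = 1 := by
  have h2 : D.el 1 μ s c * D.el 1 μ s c = D.el 1 0 0 (μ s) := by
    rw [D.mul1]
    congr 1
    · exact add_self μ
    · exact add_self s
    · rw [add_self, zero_add]
  rw [show 4 = 2 + 2 from rfl, pow_add, pow_two, h2, D.mul_z, add_self, D.one]

theorem isPGroup_ker : IsPGroup 2 (D.pi hC).ker := by
  intro g
  refine ⟨2, ?_⟩
  obtain ⟨μ, s, c, h⟩ := (D.mem_ker hC).mp g.2
  apply Subtype.ext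
  apply Subtype.ext
  push_cast
  rw [h]
  exact D.pow_four μ s c

theorem pCore_eq [Finite G] : pCore 2 ↥(centralizer ({z} : Set G)) = (D.pi hC).ker := by
  apply le_antisymm
  · intro x hx
    rw [MonoidHom.mem_ker]
    apply eq_one_of_comm
    intro B
    set b : ↥(centralizer ({z} : Set G)) := ⟨D.el B 0 0 0, D.mem_cent hz B 0 0 0⟩ with hb
    have h1 : D.pi hC b = B := D.pi_mk hC rfl
    have h2 : x * b * x⁻¹ * b⁻¹ ∈ pCore 2 ↥(centralizer ({z} : Set G)) := by
      have h3 : b * x⁻¹ * b⁻¹ ∈ pCore 2 ↥(centralizer ({z} : Set G)) :=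
        (Solv.pCore_normal (G := ↥(centralizer ({z} : Set G))) 2).conj_mem _ (inv_mem hx) b
      have := mul_mem hx h3
      rwa [← mul_assoc, ← mul_assoc] at this
    obtain ⟨k, hk⟩ := Solv.pCore_isPGroup (G := ↥(centralizer ({z} : Set G))) 2 ⟨_, h2⟩
    refine ⟨k, ?_⟩
    have h4 : (x * b * x⁻¹ * b⁻¹) ^ 2 ^ k = 1 := by
      have := congrArg Subtype.val hk
      simpa using this
    have h5 := congrArg (D.pi hC) h4
    rw [map_pow, map_one, map_mul, map_mul, map_mul, map_inv, map_inv, h1] at h5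
    exact h5
  · exact Solv.le_pCore (MonoidHom.normal_ker _) (D.isPGroup_ker hz hC)

end HD

end Cfsg.Agent.H73.Heis
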