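import Cfsg.Agent.H73.Heis

/-!
The centralizer of a transvection over the field with two elements: the extraspecial group and
its properties.
-/

set_option autoImplicit false
set_option linter.unusedSectionVars false
set_option linter.unusedVariables false

namespace Cfsg.Agent.H73.Heis
open Subgroup Cfsg
open scoped commutatorElement

namespace HD
variable {G W : Type*} [Group G] [AddCommGroup W] [Module F W] (D : HD G W)
  {z : G} (hz : z = D.el 1 0 0 1)
  (hC : ∀ g ∈ centralizer ({z} : Set G), ∃ A μ s c, g = D.el A μ s c)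
  {Q : Subgroup G} (hQm : ∀ g, g ∈ Q ↔ ∃ μ s c, g = D.el 1 μ s c)

include hz hC hQm in
theorem mem_centQ {g : G} : g ∈ centralizer (Q : Set G) ↔ ∃ c, g = D.el 1 0 0 c := by
  constructor
  · intro h
    have hgz : g ∈ centralizer ({z} : Set G) := by
      rw [mem_centralizer_singleton_iff]
      exact (mem_centralizer_iff.mp h z ((hQm z).mpr ⟨0, 0, 1, hz⟩)).symm
    obtain ⟨A, μ, s, c, rfl⟩ := hC g hgz
    have key : ∀ (μ' : W →ₗ[F] F) (s' : W), μ = μ' ∘ₗ (A : W →ₗ[F] W) + μ - μ' ∧ A s' = s' ∧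
        μ s' = μ' s := by
      intro μ' s'
      have h1 := mem_centralizer_iff.mp h (D.el 1 μ' s' 0) ((hQm _).mpr ⟨μ', s', 0, rfl⟩)
      rw [D.mul, D.mul] at h1
      obtain ⟨-, h2, h3, h4⟩ := D.inj h1
      refine ⟨?_, ?_, ?_⟩
      · rw [h2]
        ext x; simp
      · have : s + s' = A s' + s := h3
        rw [add_comm] at this
        exact (add_right_cancel this).symm
      · have h5 : 0 + c + μ' s = c + 0 + μ s' := h4
        rw [zero_add, add_zero] at h5
        exact (add_left_cancel h5).symm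
    have hA : A = 1 := LinearEquiv.ext fun s' => (key 0 s').2.1
    have hμ : μ = 0 := LinearMap.ext fun s' => by simpa using (key 0 s').2.2
    have hs : s = 0 := by
      by_contra hs
      obtain ⟨φ, hφ⟩ := exists_fun' hs
      have := (key φ 0).2.2
      rw [map_zero, hφ] at this
      exact absurd this (by decide)
    exact ⟨c, by rw [hA, hμ, hs]⟩
  · rintro ⟨c, rfl⟩
    rw [mem_centralizer_iff]
    intro q hq
    obtain ⟨μ, s, d, rfl⟩ := (hQm q).mp hq
    rw [D.mul_z, D.z_mul]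

include hz hC hQm in
theorem center_map : (center Q).map Q.subtype = centralizer (Q : Set G) := by
  ext g
  rw [D.mem_centQ hz hC hQm]
  constructor
  · rintro ⟨x, hx, rfl⟩
    rw [← D.mem_centQ hz hC hQm]
    rw [mem_centralizer_iff]
    intro q hq
    have := (Subgroup.mem_center_iff.mp hx) ⟨q, hq⟩
    exact congrArg Subtype.val this
  · rintro ⟨c, rfl⟩
    refine ⟨⟨D.el 1 0 0 c, (hQm _).mpr ⟨0, 0, c, rfl⟩⟩, ?_, rfl⟩
    rw [SetLike.mem_coe, Subgroup.mem_center_iff]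
    rintro ⟨q, hq⟩
    obtain ⟨μ, s, d, rfl⟩ := (hQm q).mp hq
    apply Subtype.ext
    show D.el 1 μ s d * D.el 1 0 0 c = D.el 1 0 0 c * D.el 1 μ s d
    rw [D.mul_z, D.z_mul]

include hz hC hQm in
theorem card_center : Nat.card (center Q) = 2 := by
  have h1 : Nat.card ((center Q).map Q.subtype) = Nat.card (center Q) :=
    Nat.card_congr ((center Q).equivMapOfInjective _ Q.subtype_injective).symm.toEquiv
  rw [← h1, D.center_map hz hC hQm]
  have e : F ≃ ↥(centralizer (Q : Set G)) :=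
    Equiv.ofBijective (fun c => ⟨D.el 1 0 0 c, (D.mem_centQ hz hC hQm).mpr ⟨c, rfl⟩⟩) (by
      constructor
      · intro c d h
        exact (D.inj (congrArg Subtype.val h)).2.2.2
      · rintro ⟨g, hg⟩
        obtain ⟨c, hc⟩ := (D.mem_centQ hz hC hQm).mp hg
        exact ⟨c, Subtype.ext hc.symm⟩)
  rw [← Nat.card_congr e]
  simp [F]

include hz hC hQm in
theorem centQ_eq : centralizer (Q : Set G) = zpowers z := by
  ext g
  rw [D.mem_centQ hz hC hQm]
  constructor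
  · rintro ⟨c, rfl⟩
    rcases two c with h | h
    · rw [h, D.one]; exact one_mem _
    · rw [h, ← hz]; exact mem_zpowers z
  · intro h
    have h1 : z ∈ centralizer (Q : Set G) := (D.mem_centQ hz hC hQm).mpr ⟨1, hz⟩
    have h2 : zpowers z ≤ centralizer (Q : Set G) := by rwa [zpowers_le]
    exact (D.mem_centQ hz hC hQm).mp (h2 h)

include hz hC hQm in
theorem cent_center : centralizer (((center Q).map Q.subtype : Subgroup G) : Set G) =
    centralizer ({z} : Set G) := by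
  rw [D.center_map hz hC hQm, D.centQ_eq hz hC hQm]
  ext g
  rw [mem_centralizer_iff, mem_centralizer_singleton_iff]
  constructor
  · intro h
    exact (h z (mem_zpowers z)).symm
  · intro h y hy
    obtain ⟨k, rfl⟩ := hy
    have : Commute z g := h.symm
    exact (this.zpow_left k).eq

include hz hC hQm in
theorem classTwo : Extra.ClassTwo ↥Q := by
  unfold Extra.ClassTwo
  rw [commutator_def, commutator_le]
  rintro ⟨x, hx⟩ - ⟨y, hy⟩ -
  have h0 : ((⁅(⟨x, hx⟩ : Q), ⟨y, hy⟩⁆ : Q) : G) ∈ centralizer (Q : Set G) := by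
    rw [D.mem_centQ hz hC hQm]
    obtain ⟨μ, s, c, hx'⟩ := (hQm x).mp hx
    obtain ⟨μ', s', c', hy'⟩ := (hQm y).mp hy
    refine ⟨μ s' + μ' s, ?_⟩
    have h1 : x * y = D.el 1 0 0 (μ s' + μ' s) * (y * x) := by
      rw [hx', hy', D.mul1, D.mul1, D.z_mul]
      congr 1
      · exact add_comm _ _
      · exact add_comm _ _
      · have h2 : c' + c + μ' s + (μ s' + μ' s) = c + c' + μ s' + (μ' s + μ' s) := by ring
        rw [h2, add_self, add_zero]
    show x * y * x⁻¹ * y⁻¹ = _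
    rw [h1]; group
  rw [← D.center_map hz hC hQm] at h0
  obtain ⟨w, hw, hw2⟩ := h0
  have : w = ⁅(⟨x, hx⟩ : Q), ⟨y, hy⟩⁆ := Subtype.ext hw2
  rwa [← this]


include hz hC hQm in
theorem center_ne_top {n : ℕ} (hn : 1 ≤ n) [Finite W] (hW : Nat.card W = 2 ^ n) : center Q ≠ ⊤ := by
  intro h
  have : ∃ s : W, s ≠ 0 := by
    by_contra hc
    push Not at hc
    have h1 : Nat.card W = 1 := by
      rw [Nat.card_eq_one_iff_unique]
      exact ⟨⟨fun a b => by rw [hc a, hc b]⟩, ⟨0⟩⟩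
    rw [hW] at h1
    have : 2 ^ 1 ≤ 2 ^ n := Nat.pow_le_pow_right (by norm_num) hn
    omega
  obtain ⟨s, hs⟩ := this
  have h2 : D.el 1 0 s 0 ∈ centralizer (Q : Set G) := by
    rw [← D.center_map hz hC hQm, h]
    exact ⟨⟨_, (hQm _).mpr ⟨0, s, 0, rfl⟩⟩, mem_top _, rfl⟩
  obtain ⟨c, hc⟩ := (D.mem_centQ hz hC hQm).mp h2
  exact hs (D.inj hc).2.2.1

include hz hC hQm in
theorem extra [Finite G] {n : ℕ} (hn : 1 ≤ n) [Finite W] (hW : Nat.card W = 2 ^ n) :
    IsExtraspecial 2 ↥Q :=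
  Extra.isExtraspecial_of_ges ⟨D.card_center hz hC hQm, D.classTwo hz hC hQm⟩
    (D.center_ne_top hz hC hQm hn hW)

theorem card_dual {n : ℕ} [Finite W] (hW : Nat.card W = 2 ^ n) : Nat.card (W →ₗ[F] F) = 2 ^ n := by
  have h1 := Module.natCard_eq_pow_finrank (K := F) (V := W)
  have h2 := Module.natCard_eq_pow_finrank (K := F) (V := (W →ₗ[F] F))
  have h3 : Module.finrank F (W →ₗ[F] F) = Module.finrank F W := Subspace.dual_finrank_eq
  rw [h2, h3, ← h1, hW]

include hQm in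
theorem card_Q {n : ℕ} [Finite W] (hW : Nat.card W = 2 ^ n) : Nat.card Q = 2 ^ (2 * n + 1) := by
  have e : ((W →ₗ[F] F) × W × F) ≃ Q :=
    Equiv.ofBijective (fun t => ⟨D.el 1 t.1 t.2.1 t.2.2, (hQm _).mpr ⟨_, _, _, rfl⟩⟩) (by
      constructor
      · rintro ⟨a, b, c⟩ ⟨a', b', c'⟩ h
        obtain ⟨-, h1, h2, h3⟩ := D.inj (congrArg Subtype.val h)
        simp only at h1 h2 h3
        rw [h1, h2, h3]
      · rintro ⟨g, hg⟩
        obtain ⟨a, b, c, h⟩ := (hQm g).mp hg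
        exact ⟨(a, b, c), Subtype.ext h.symm⟩)
  rw [← Nat.card_congr e, Nat.card_prod, Nat.card_prod, card_dual hW, hW]
  have : Nat.card F = 2 := by simp [F]
  rw [this]; ring

include hQm in
theorem exists_E {n : ℕ} [Finite W] (hW : Nat.card W = 2 ^ n) :
    ∃ E : Subgroup G, E ≤ Q ∧ IsElementaryAbelian 2 E ∧ Nat.card E = 2 ^ (n + 1) := by
  let E : Subgroup G :=
    { carrier := {g | ∃ s c, g = D.el 1 0 s c}
      one_mem' := ⟨0, 0, D.one.symm⟩
      mul_mem' := by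
        rintro _ _ ⟨s, c, rfl⟩ ⟨s', c', rfl⟩
        exact ⟨s + s', c + c', by rw [D.mul1]; simp⟩
      inv_mem' := by
        rintro _ ⟨s, c, rfl⟩
        refine ⟨s, c, ?_⟩
        rw [inv_eq_iff_mul_eq_one, D.mul1, add_self, add_self, LinearMap.zero_apply, add_zero,
          add_self]
        exact D.one }
  have hE : ∀ g, g ∈ E ↔ ∃ s c, g = D.el 1 0 s c := fun g => Iff.rfl
  refine ⟨E, ?_, ⟨⟨⟨?_⟩⟩, ?_⟩, ?_⟩
  · rintro _ ⟨s, c, rfl⟩
    exact (hQm _).mpr ⟨_, _, _, rfl⟩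
  · rintro ⟨_, s, c, rfl⟩ ⟨_, s', c', rfl⟩
    apply Subtype.ext
    show D.el 1 0 s c * D.el 1 0 s' c' = D.el 1 0 s' c' * D.el 1 0 s c
    rw [D.mul1, D.mul1]
    congr 1
    · exact add_comm _ _
    · simp [add_comm]
  · rintro _ ⟨s, c, rfl⟩
    rw [pow_two, D.mul1, add_self, add_self, LinearMap.zero_apply, add_zero, add_self]
    exact D.one
  · have e : (W × F) ≃ E :=
      Equiv.ofBijective (fun t => ⟨D.el 1 0 t.1 t.2, ⟨_, _, rfl⟩⟩) (by
        constructor
        · rintro ⟨b, c⟩ ⟨b', c'⟩ h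
          obtain ⟨-, h1, h2, h3⟩ := D.inj (congrArg Subtype.val h)
          simp only at h1 h2 h3
          rw [h2, h3]
        · rintro ⟨g, b, c, h⟩
          exact ⟨(b, c), Subtype.ext h.symm⟩)
    rw [← Nat.card_congr e, Nat.card_prod, hW]
    have : Nat.card F = 2 := by simp [F]
    rw [this]; ring

include hz hC hQm in
theorem exists_K : ∃ K : Subgroup G, K ≤ centralizer ({z} : Set G) ∧ Q ⊓ K = ⊥ ∧
    Q ⊔ K = centralizer ({z} : Set G) ∧ Nonempty (↥K ≃* (W ≃ₗ[F] W)) := by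
  have hmulK : ∀ A B : W ≃ₗ[F] W, D.el A 0 0 0 * D.el B 0 0 0 = D.el (A * B) 0 0 0 := by
    intro A B
    rw [D.mul]
    congr 1 <;> simp
  let f : (W ≃ₗ[F] W) →* G :=
    { toFun := fun A => D.el A 0 0 0
      map_one' := D.one
      map_mul' := fun A B => (hmulK A B).symm }
  have hf : Function.Injective f := fun A B h => (D.inj h).1
  refine ⟨f.range, ?_, ?_, ?_, ⟨(MonoidHom.ofInjective hf).symm⟩⟩
  · rintro _ ⟨A, rfl⟩
    exact D.mem_cent hz A 0 0 0
  · rw [eq_bot_iff]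
    rintro _ ⟨h1, ⟨A, rfl⟩⟩
    obtain ⟨μ, s, c, h⟩ := (hQm _).mp h1
    have : A = 1 := (D.inj h).1
    rw [this, map_one]
    exact one_mem _
  · apply le_antisymm
    · apply sup_le
      · intro g hg
        obtain ⟨μ, s, c, h⟩ := (hQm _).mp hg
        rw [h]
        exact D.mem_cent hz 1 μ s c
      · rintro _ ⟨A, rfl⟩
        exact D.mem_cent hz A 0 0 0
    · intro g hg
      obtain ⟨A, μ, s, c, rfl⟩ := hC g hg
      have h1 : D.el A μ s c = D.el 1 (μ ∘ₗ ((A⁻¹ : W ≃ₗ[F] W) : W →ₗ[F] W)) s c * D.el A 0 0 0 := by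
        rw [D.mul]
        congr 1
        · ext x
          simp only [LinearMap.add_apply, LinearMap.comp_apply, LinearMap.zero_apply, add_zero]
          congr 1
          exact (A.symm_apply_apply x).symm
        · simp
        · simp
      rw [h1]
      exact mul_mem_sup ((hQm _).mpr ⟨_, _, _, rfl⟩) ⟨A, rfl⟩

end HD

/-- the conclusion of the two statements. -/
theorem main {G W : Type*} [Group G] [Finite G] [AddCommGroup W] [Module F W] [Finite W]
    (D : HD G W) {z : G} (hz : z = D.el 1 0 0 1)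
    (hC : ∀ g ∈ centralizer ({z} : Set G), ∃ A μ s c, g = D.el A μ s c) {n : ℕ} (hn : 1 ≤ n)
    (hW : Nat.card W = 2 ^ n) (Q : Subgroup G)
    (hQ : Q = (pCore 2 ↥(centralizer ({z} : Set G))).map (centralizer ({z} : Set G)).subtype)
    (hodd : ∀ K : Subgroup G, Odd (Nat.card K) → Q ≤ normalizer (K : Set G) → K = ⊥) :
    IsExtraspecial 2 ↥Q ∧ Nat.card ↥Q = 2 ^ (2 * n + 1) ∧
    (∃ E : Subgroup G, E ≤ Q ∧ IsElementaryAbelian 2 E ∧ Nat.card ↥E = 2 ^ (n + 1)) ∧
    IsLargeExtraspecial Q ∧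
    ∃ K : Subgroup G, K ≤ centralizer ({z} : Set G) ∧ Q ⊓ K = ⊥ ∧
      Q ⊔ K = centralizer ({z} : Set G) ∧ Nonempty (↥K ≃* (W ≃ₗ[F] W)) := by
  have hQm : ∀ g, g ∈ Q ↔ ∃ μ s c, g = D.el 1 μ s c := by
    intro g
    rw [hQ, D.pCore_eq hz hC]
    constructor
    · rintro ⟨x, hx, rfl⟩
      exact (D.mem_ker hC).mp hx
    · rintro ⟨μ, s, c, h⟩
      refine ⟨⟨g, h ▸ D.mem_cent hz 1 μ s c⟩, ?_, rfl⟩
      exact (D.mem_ker hC).mpr ⟨μ, s, c, h⟩
  have hex := D.extra hz hC hQm hn hW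
  refine ⟨hex, D.card_Q hQm hW, D.exists_E hQm hW, ⟨hex, (D.center_map hz hC hQm).symm, ?_, hodd⟩,
    D.exists_K hz hC hQm⟩
  rw [D.cent_center hz hC hQm]
  intro g hg
  rw [mem_normalizer_iff]
  have key : ∀ h ∈ centralizer ({z} : Set G), ∀ q ∈ Q, h * q * h⁻¹ ∈ Q := by
    intro h hh q hq
    rw [hQ] at hq ⊢
    obtain ⟨x, hx, rfl⟩ := hq
    exact ⟨⟨h, hh⟩ * x * ⟨h, hh⟩⁻¹, (Solv.pCore_normal (G := ↥(centralizer ({z} : Set G))) 2).conj_mem _ hx _, rfl⟩
  intro q
  constructor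
  · exact key g hg q
  · intro h
    have := key g⁻¹ (inv_mem hg) _ h
    have e : g⁻¹ * (g * q * g⁻¹) * g⁻¹⁻¹ = q := by group
    rwa [e] at this

end Cfsg.Agent.H73.Heis
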