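import Cfsg.Agent.H73.Heis2

/-!
The linear model `W × F × F` for the centralizer of a transvection over the field with two
elements, and the absence of odd order subgroups normalized by the extraspecial group.
-/

set_option autoImplicit false
set_option linter.unusedSectionVars false
set_option linter.unusedVariables false

namespace Cfsg.Agent.H73.Heis
open Subgroup Cfsg
open scoped commutatorElement

section lin
variable {W : Type*} [AddCommGroup W] [Module F W]

theorem exists_A [Finite W] (L : (W × F) →ₗ[F] (W × F)) (hL : Function.Injective L)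
    (hu : L (0, 1) = (0, 1)) :
    ∃ (A : W ≃ₗ[F] W) (μ : W →ₗ[F] F), ∀ x a, L (x, a) = (A x, a + μ x) := by
  have hFD : FiniteDimensional F W := Module.Finite.of_finite
  let A0 : W →ₗ[F] W := (LinearMap.fst F W F) ∘ₗ L ∘ₗ (LinearMap.inl F W F)
  let μ : W →ₗ[F] F := (LinearMap.snd F W F) ∘ₗ L ∘ₗ (LinearMap.inl F W F)
  have h0 : ∀ x, L (x, 0) = (A0 x, μ x) := fun x => rfl
  have hua : ∀ a : F, L (0, a) = (0, a) := by
    intro a
    have : ((0 : W), a) = a • ((0 : W), (1 : F)) := by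
      rw [Prod.smul_mk, smul_zero, smul_eq_mul, mul_one]
    rw [this, map_smul, hu]
  have hA0 : Function.Injective A0 := by
    rw [← LinearMap.ker_eq_bot, LinearMap.ker_eq_bot']
    intro x hx
    have h1 := h0 x
    rw [hx, ← hua (μ x)] at h1
    have h2 := hL h1
    exact congrArg Prod.fst h2
  refine ⟨LinearEquiv.ofInjectiveEndo A0 hA0, μ, ?_⟩
  intro x a
  have h1 : ((x, a) : W × F) = (x, 0) + (0, a) := by simp
  rw [h1, map_add, h0, hua]
  simp [add_comm]

/-- the linear map of a tuple. -/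
noncomputable def T0 (A : W ≃ₗ[F] W) (μ : W →ₗ[F] F) (s : W) (c : F) :
    (W × F × F) →ₗ[F] (W × F × F) where
  toFun v := (A v.1 + v.2.2 • s, v.2.1 + μ v.1 + v.2.2 * c, v.2.2)
  map_add' v w := by
    ext
    · simp [add_smul]; abel
    · simp [add_mul]; ring
    · simp
  map_smul' r v := by
    ext
    · simp [smul_smul]
    · simp; ring
    · simp

theorem T0_bij (A : W ≃ₗ[F] W) (μ : W →ₗ[F] F) (s : W) (c : F) : Function.Bijective (T0 A μ s c) := by
  constructor
  · rw [← LinearMap.ker_eq_bot, LinearMap.ker_eq_bot']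
    rintro ⟨x, a, b⟩ h
    have h' : (A x + b • s, a + μ x + b * c, b) = ((0 : W), (0 : F), (0 : F)) := h
    simp only [Prod.mk.injEq] at h'
    obtain ⟨h1, h2, h3⟩ := h'
    subst h3
    rw [zero_smul, add_zero] at h1
    have hx : x = 0 := by simpa using h1
    subst hx
    simp at h2
    simp [h2]
  · rintro ⟨y, d, b⟩
    refine ⟨(A.symm (y - b • s), d - μ (A.symm (y - b • s)) - b * c, b), ?_⟩
    show (A (A.symm (y - b • s)) + b • s, (d - μ (A.symm (y - b • s)) - b * c) +
      μ (A.symm (y - b • s)) + b * c, b) = (y, d, b)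
    rw [A.apply_symm_apply]
    ext
    · simp
    · show d - μ (A.symm (y - b • s)) - b * c + μ (A.symm (y - b • s)) + b * c = d
      ring
    · simp

noncomputable def T (A : W ≃ₗ[F] W) (μ : W →ₗ[F] F) (s : W) (c : F) :
    (W × F × F) ≃ₗ[F] (W × F × F) := LinearEquiv.ofBijective (T0 A μ s c) (T0_bij A μ s c)

theorem T_apply (A : W ≃ₗ[F] W) (μ : W →ₗ[F] F) (s : W) (c : F) (x : W) (a b : F) :
    T A μ s c (x, a, b) = (A x + b • s, a + μ x + b * c, b) := rfl

noncomputable def HT : HD ((W × F × F) ≃ₗ[F] (W × F × F)) W where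
  el := T
  mul := by
    intro A μ s c A' μ' s' c'
    ext v
    all_goals
      obtain ⟨x, a, b⟩ := v
      change _ = _
      rw [LinearEquiv.mul_apply, T_apply, T_apply, T_apply]
    · simp only [map_add, map_smul, LinearEquiv.mul_apply, smul_add]; abel
    · simp only [map_add, map_smul, LinearMap.add_apply, LinearMap.comp_apply, smul_eq_mul,
        LinearEquiv.coe_coe]; ring
  inj := by
    intro A μ s c A' μ' s' c' h
    have key : ∀ x a b, T A μ s c (x, a, b) = T A' μ' s' c' (x, a, b) := fun x a b => by rw [h]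
    simp only [T_apply, Prod.mk.injEq] at key
    have h0 := key 0 0 1
    simp only [map_zero, one_smul, zero_add, one_mul, true_and, and_true] at h0
    refine ⟨?_, ?_, h0.1, h0.2⟩
    · ext x
      have := (key x 0 0).1
      simpa using this
    · ext x
      have := (key x 0 0).2.1
      simpa using this

theorem exists_T [Finite W] (g : (W × F × F) ≃ₗ[F] (W × F × F))
    (h : g * T 1 0 0 1 = T 1 0 0 1 * g) : ∃ A μ s c, g = T A μ s c := by
  have hz : ∀ v : W × F × F, T (1 : W ≃ₗ[F] W) 0 0 1 v = v + v.2.2 • ((0 : W), (1 : F), (0 : F)) := by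
    rintro ⟨x, a, b⟩
    rw [T_apply]
    ext <;> simp
  set u : W × F × F := ((0 : W), (1 : F), (0 : F)) with hu
  have hu0 : u ≠ 0 := by
    rw [hu]; intro h1
    have := congrArg (fun v : W × F × F => v.2.1) h1
    simp at this
  have h1 : ∀ v, v.2.2 • g u = (g v).2.2 • u := by
    intro v
    have h2 : g (T 1 0 0 1 v) = T 1 0 0 1 (g v) := congrArg (fun φ => φ v) h
    rw [hz, hz, map_add, map_smul] at h2
    exact add_left_cancel h2
  have h2 := h1 ((0 : W), (0 : F), (1 : F))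
  simp only [one_smul] at h2
  have h3 : (g ((0 : W), (0 : F), (1 : F))).2.2 = 1 := by
    refine (two _).resolve_left fun h4 => ?_
    rw [h4, zero_smul] at h2
    exact hu0 (by simpa using h2)
  rw [h3, one_smul] at h2
  have h4 : ∀ v, (g v).2.2 = v.2.2 := by
    intro v
    have h5 := h1 v
    rw [h2] at h5
    have := congrArg (fun v : W × F × F => v.2.1) h5
    simpa [hu] using this.symm
  let L : (W × F) →ₗ[F] (W × F) :=
    { toFun := fun v => ((g (v.1, v.2, 0)).1, (g (v.1, v.2, 0)).2.1)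
      map_add' := by
        rintro ⟨x, a⟩ ⟨x', a'⟩
        have : ((x + x', a + a', (0 : F)) : W × F × F) = (x, a, 0) + (x', a', 0) := by simp
        simp only [Prod.mk_add_mk]
        rw [this, map_add]
        rfl
      map_smul' := by
        rintro r ⟨x, a⟩
        have : ((r • x, r • a, (0 : F)) : W × F × F) = r • (x, a, 0) := by simp
        simp only [Prod.smul_mk, RingHom.id_apply]
        rw [this, map_smul]
        rfl }
  have hL : ∀ x a, g (x, a, 0) = ((L (x, a)).1, (L (x, a)).2, 0) := by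
    intro x a
    have := h4 (x, a, 0)
    ext
    · rfl
    · rfl
    · exact this
  have hLi : Function.Injective L := by
    rintro ⟨x, a⟩ ⟨x', a'⟩ h5
    have h6 : g (x, a, 0) = g (x', a', 0) := by rw [hL, hL, h5]
    have h7 := g.injective h6
    simp only [Prod.mk.injEq] at h7
    rw [h7.1, h7.2.1]
  have hLu : L (0, 1) = (0, 1) := by
    have h5 := hL 0 1
    rw [show g ((0 : W), (1 : F), (0 : F)) = ((0 : W), (1 : F), (0 : F)) from h2] at h5
    simp only [Prod.mk.injEq] at h5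
    ext
    · exact h5.1.symm
    · exact h5.2.1.symm
  obtain ⟨A, μ, hA⟩ := exists_A L hLi hLu
  refine ⟨A, μ, (g ((0 : W), (0 : F), (1 : F))).1, (g ((0 : W), (0 : F), (1 : F))).2.1, ?_⟩
  ext v
  all_goals
    obtain ⟨x, a, b⟩ := v
    have h5 : ((x, a, b) : W × F × F) = (x, a, 0) + b • ((0 : W), (0 : F), (1 : F)) := by
      ext <;> simp
    have h6 : g (x, a, b) = (A x, a + μ x, 0) + b • g ((0 : W), (0 : F), (1 : F)) := by
      rw [h5, map_add, map_smul, hL, hA]
    rw [h6, T_apply]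
  · simp
  · simp
  · simp [h3]

end lin

section odd
variable {G : Type*} [Group G]

/-- an odd order subgroup normalized by a `2`-group `Q` and meeting its centralizer trivially;
`z ∈ Z(Q)` with `C(z) ≤ N(Q)` inverts it. -/
theorem inverts [Finite G] {Q : Subgroup G} (hQ2 : IsPGroup 2 Q) {z : G} (hz2 : z * z = 1) (hzQ : z ∈ Q)
    (hN : centralizer ({z} : Set G) ≤ normalizer (Q : Set G))
    (hcent : centralizer (Q : Set G) ≤ Q) {K : Subgroup G} (hK : Odd (Nat.card K))
    (hQK : Q ≤ normalizer (K : Set G)) {k : G} (hk : k ∈ K) : z * k * z⁻¹ = k⁻¹ := by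
  have hdis : Q ⊓ K = ⊥ := by
    apply Disjoint.eq_bot
    apply Subgroup.disjoint_of_coprime_natCard
    obtain ⟨n, hn⟩ := IsPGroup.iff_card.mp hQ2
    rw [hn]
    exact Nat.Coprime.pow_left _ (Nat.coprime_two_left.mpr hK)
  have hconj : ∀ q ∈ Q, ∀ k ∈ K, q * k * q⁻¹ ∈ K := fun q hq k hk =>
    (mem_normalizer_iff.mp (hQK hq) k).mp hk
  have h1 : ∀ k ∈ K, k * z = z * k → k = 1 := by
    intro k hk hkz
    have hkN : k ∈ normalizer (Q : Set G) := hN (mem_centralizer_singleton_iff.mpr hkz)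
    have hkc : k ∈ centralizer (Q : Set G) := by
      rw [mem_centralizer_iff]
      intro q hq
      have h2 : k * q * k⁻¹ * q⁻¹ ∈ Q ⊓ K := by
        refine ⟨Q.mul_mem ((mem_normalizer_iff.mp hkN q).mp hq) (Q.inv_mem hq), ?_⟩
        have := K.mul_mem hk (hconj q hq k⁻¹ (K.inv_mem hk))
        have e : k * (q * k⁻¹ * q⁻¹) = k * q * k⁻¹ * q⁻¹ := by group
        rwa [e] at this
      rw [hdis, mem_bot] at h2
      have h3 : k * q = q * k := by
        have := congrArg (fun y => y * q * k) h2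
        simpa using this
      exact h3.symm
    have : k ∈ Q ⊓ K := ⟨hcent hkc, hk⟩
    rwa [hdis, mem_bot] at this
  -- the map `k ↦ k⁻¹ z k z⁻¹` is a bijection of `K`
  let f : K → K := fun k => ⟨(k : G)⁻¹ * (z * k * z⁻¹), mul_mem (inv_mem k.2) (hconj z hzQ k k.2)⟩
  have hf : Function.Injective f := by
    rintro ⟨a, ha⟩ ⟨b, hb⟩ hab
    have h2 : a⁻¹ * (z * a * z⁻¹) = b⁻¹ * (z * b * z⁻¹) := congrArg Subtype.val hab
    have h3 : (b * a⁻¹) * z = z * (b * a⁻¹) := by
      have : b * a⁻¹ * (z * a * z⁻¹) = z * b * z⁻¹ := by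
        rw [mul_assoc, h2]; group
      have h4 : b * a⁻¹ * z = z * b * z⁻¹ * (z * a * z⁻¹)⁻¹ * z := by
        rw [← this]; group
      rw [h4]; group
    have h5 := h1 _ (mul_mem hb (inv_mem ha)) h3
    apply Subtype.ext
    exact (mul_inv_eq_one.mp h5).symm
  have hs : Function.Surjective f := Finite.injective_iff_surjective.mp hf
  obtain ⟨⟨a, ha⟩, hak⟩ := hs ⟨k, hk⟩
  have h2 : a⁻¹ * (z * a * z⁻¹) = k := congrArg Subtype.val hak
  have hzi : z⁻¹ = z := inv_eq_of_mul_eq_one_left hz2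
  rw [← h2, hzi]
  calc z * (a⁻¹ * (z * a * z)) * z = z * a⁻¹ * z * a * (z * z) := by group
    _ = (a⁻¹ * (z * a * z⁻¹))⁻¹ * (z * z) := by rw [hz2, hzi]; simp [mul_assoc, hzi]
    _ = (a⁻¹ * (z * a * z))⁻¹ := by rw [hz2, hzi, mul_one]

variable {W : Type*} [AddCommGroup W] [Module F W]

theorem hodd [Finite G] [Finite W] (D : HD G W) {z : G} (hz : z = D.el 1 0 0 1)
    (hC : ∀ g ∈ centralizer ({z} : Set G), ∃ A μ s c, g = D.el A μ s c)
    {Q : Subgroup G} (hQm : ∀ g, g ∈ Q ↔ ∃ μ s c, g = D.el 1 μ s c)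
    (hN : centralizer ({z} : Set G) ≤ normalizer (Q : Set G)) (hQ2 : IsPGroup 2 Q)
    (hW : ∃ s : W, s ≠ 0)
    (ρ : G →* ((W × F × F) ≃ₗ[F] (W × F × F))) (hρ : ρ z = T 1 0 0 1) (hinj : Function.Injective ρ)
    {K : Subgroup G} (hK : Odd (Nat.card K)) (hQK : Q ≤ normalizer (K : Set G)) : K = ⊥ := by
  have hzQ : z ∈ Q := (hQm z).mpr ⟨0, 0, 1, hz⟩
  have hz2 : z * z = 1 := by
    rw [hz, D.mul_z, add_self, D.one]
  have hcent : centralizer (Q : Set G) ≤ Q := by
    intro g hg
    obtain ⟨c, h⟩ := (D.mem_centQ hz hC hQm).mp hg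
    exact (hQm g).mpr ⟨0, 0, c, h⟩
  have hinv : ∀ k ∈ K, z * k * z⁻¹ = k⁻¹ := fun k hk =>
    inverts hQ2 hz2 hzQ hN hcent hK hQK hk
  have hzi : z⁻¹ = z := inv_eq_of_mul_eq_one_left hz2
  set u : W × F × F := ((0 : W), (1 : F), (0 : F)) with hu
  have hT : ∀ v : W × F × F, ρ z v = v + v.2.2 • u := by
    rintro ⟨x, a, b⟩
    rw [hρ, T_apply]
    ext <;> simp [hu]
  have hfz : ∀ v, (ρ z v).2.2 = v.2.2 := by
    intro v; rw [hT]; simp [hu]
  have hzu : ρ z u = u := by rw [hT]; simp [hu]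
  have hρm : ∀ (a b : G) (v), ρ (a * b) v = ρ a (ρ b v) := fun a b v => by rw [map_mul]; rfl
  have hρi : ∀ (a : G) (v), ρ a⁻¹ (ρ a v) = v := fun a v => by rw [← hρm, inv_mul_cancel, map_one]; rfl
  have hρi' : ∀ (a : G) (v), ρ a (ρ a⁻¹ v) = v := fun a v => by rw [← hρm, mul_inv_cancel, map_one]; rfl
  have hodd4 : ∀ k ∈ K, k ^ 4 = 1 → k = 1 := by
    intro k hk h4
    have h1 : orderOf k ∣ 4 := orderOf_dvd_of_pow_eq_one h4
    have h2 : orderOf k ∣ Nat.card K := by
      have := orderOf_dvd_natCard (⟨k, hk⟩ : K)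
      rwa [← orderOf_submonoid] at this
    have h3 : Nat.Coprime 4 (Nat.card K) := by
      rw [show 4 = 2 ^ 2 from rfl]
      exact Nat.Coprime.pow_left _ (Nat.coprime_two_left.mpr hK)
    have h5 := Nat.eq_one_of_dvd_coprimes h3 h1 h2
    exact orderOf_eq_one_iff.mp h5
  have hcomm : ∀ a ∈ K, ∀ b ∈ K, a * b = b * a := by
    intro a ha b hb
    have h1 := hinv (a * b) (mul_mem ha hb)
    have h2 : z * (a * b) * z⁻¹ = (z * a * z⁻¹) * (z * b * z⁻¹) := by group
    rw [h2, hinv a ha, hinv b hb, ← mul_inv_rev] at h1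
    exact (inv_injective h1).symm
  have hstep : ∀ k ∈ K, k ≠ 1 → (ρ k u).2.2 = 1 ∧ ρ k (ρ k u) = u + ρ k u := by
    intro k hk hk1
    have hki := hinv k hk
    have hp : (ρ k⁻¹ u).2.2 = (ρ k u).2.2 := by
      rw [← hki, hρm, hρm, hfz, hzi, hzu]
    obtain ⟨z', hz'e⟩ : ∃ z', z' = k⁻¹ * z * k := ⟨_, rfl⟩
    have hz' : ∀ v, ρ z' v = v + (ρ k v).2.2 • ρ k⁻¹ u := by
      intro v
      rw [hz'e, hρm, hρm, hT, map_add, map_smul, hρi]
    have hzz : z' * z = k⁻¹ * k⁻¹ := by
      have h1 : z * k * z = k⁻¹ := by rw [← hki, hzi]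
      rw [hz'e]
      calc k⁻¹ * z * k * z = k⁻¹ * (z * k * z) := by group
        _ = k⁻¹ * k⁻¹ := by rw [h1]
    have hz'2 : z' * z' = 1 := by
      rw [hz'e]
      calc k⁻¹ * z * k * (k⁻¹ * z * k) = k⁻¹ * (z * z) * k := by group
        _ = 1 := by rw [hz2]; group
    rcases two (ρ k u).2.2 with h0 | h0
    · exfalso
      apply hk1
      apply hodd4 k hk
      have hc : z * z' = z' * z := by
        apply hinj
        apply LinearEquiv.ext
        intro v
        rw [hρm, hρm, hz', hT, hT, hz']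
        have e1 : (v + (ρ k v).2.2 • ρ k⁻¹ u).2.2 = v.2.2 := by
          show v.2.2 + (ρ k v).2.2 • (ρ k⁻¹ u).2.2 = v.2.2
          rw [hp, h0, smul_zero, add_zero]
        have e2 : (ρ k (v + v.2.2 • u)).2.2 = (ρ k v).2.2 := by
          rw [map_add, map_smul]
          show (ρ k v).2.2 + v.2.2 • (ρ k u).2.2 = (ρ k v).2.2
          rw [h0, smul_zero, add_zero]
        rw [e1, e2]
        abel
      have h4 : (k⁻¹ * k⁻¹) * (k⁻¹ * k⁻¹) = 1 := by
        rw [← hzz]
        calc z' * z * (z' * z) = z' * (z * z') * z := by group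
          _ = z' * (z' * z) * z := by rw [hc]
          _ = (z' * z') * (z * z) := by group
          _ = 1 := by rw [hz2, hz'2, mul_one]
      have h5 : (k ^ 4)⁻¹ = 1 := by rw [← h4]; group
      exact inv_eq_one.mp h5
    · refine ⟨h0, ?_⟩
      have h1 : ρ (k⁻¹ * k⁻¹) u = u + ρ k⁻¹ u := by
        rw [← hzz, hρm z' z, hzu, hz', h0, one_smul]
      have h2 : ρ k (ρ k (ρ (k⁻¹ * k⁻¹) u)) = u := by
        rw [hρm, hρi', hρi']
      rw [h1, map_add, map_add, hρi'] at h2
      calc ρ k (ρ k u) = (ρ k (ρ k u) + ρ k u) + ρ k u := (add_add_self _ _).symm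
        _ = u + ρ k u := by rw [h2]
  have htwo : ∀ a ∈ K, ∀ b ∈ K, a ≠ 1 → b ≠ 1 → b = a ∨ b = a⁻¹ := by
    intro a ha b hb ha1 hb1
    by_contra hcon
    push Not at hcon
    have hab : a * b ≠ 1 := fun h => hcon.2 (eq_inv_of_mul_eq_one_right h)
    have h1 := (hstep (a * b) (mul_mem ha hb) hab).2
    have h2 : ρ (a * b) (ρ (a * b) u) = u + ρ a u + ρ b u + ρ a (ρ b u) := by
      calc ρ (a * b) (ρ (a * b) u) = ρ ((a * b) * (a * b)) u := (hρm _ _ _).symm
        _ = ρ ((a * a) * (b * b)) u := by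
            rw [show (a * b) * (a * b) = a * (b * a) * b by group, ← hcomm a ha b hb]
            congr 2; group
        _ = ρ a (ρ a (ρ b (ρ b u))) := by rw [hρm, hρm, hρm b b]
        _ = ρ a (ρ a (u + ρ b u)) := by rw [(hstep b hb hb1).2]
        _ = ρ a (ρ a u) + ρ a (ρ a (ρ b u)) := by rw [map_add, map_add]
        _ = ρ a (ρ a u) + ρ b (ρ a (ρ a u)) := by
            have e5 : a * a * b = b * a * a := by
              rw [mul_assoc, hcomm a ha b hb, ← mul_assoc, hcomm a ha b hb]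
            congr 1
            rw [← hρm, ← hρm, ← hρm, ← hρm, e5]
        _ = (u + ρ a u) + ρ b (u + ρ a u) := by rw [(hstep a ha ha1).2]
        _ = u + ρ a u + ρ b u + ρ a (ρ b u) := by
            rw [map_add, ← hρm b a, ← hcomm a ha b hb, hρm]; abel
    rw [h2, hρm a b u] at h1
    have h3 : ρ a u + ρ b u = 0 := by
      have h4 : u + ρ a u + ρ b u + ρ a (ρ b u) = (ρ a u + ρ b u) + (u + ρ a (ρ b u)) := by abel
      rw [h4] at h1
      exact add_eq_right.mp h1
    have h4 : ρ a u = ρ b u := eq_of_add h3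
    have h5 : ρ (a⁻¹ * b) u = u := by rw [hρm, ← h4, hρi]
    have h6 : a⁻¹ * b ≠ 1 := fun h => hcon.1 (inv_mul_eq_one.mp h).symm
    have h7 := (hstep (a⁻¹ * b) (mul_mem (inv_mem ha) hb) h6).1
    rw [h5] at h7
    simp [hu] at h7
  rw [eq_bot_iff]
  intro k hk
  rw [mem_bot]
  by_contra hk1
  have hP : ∀ q ∈ Q, q * k = k * q ∨ q * k = k⁻¹ * q := by
    intro q hq
    have h1 : q * k * q⁻¹ ∈ K := (mem_normalizer_iff.mp (hQK hq) k).mp hk
    have h2 : q * k * q⁻¹ ≠ 1 := by
      intro h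
      apply hk1
      have := congrArg (fun y => q⁻¹ * y * q) h
      simpa [mul_assoc] using this
    rcases htwo k hk _ h1 hk1 h2 with h | h
    · left
      calc q * k = (q * k * q⁻¹) * q := by group
        _ = k * q := by rw [h]
    · right
      calc q * k = (q * k * q⁻¹) * q := by group
        _ = k⁻¹ * q := by rw [h]
  obtain ⟨s, hs⟩ := hW
  obtain ⟨μ, hμ⟩ := exists_fun' hs
  have hq1 : D.el 1 μ 0 0 ∈ Q := (hQm _).mpr ⟨_, _, _, rfl⟩
  have hq2 : D.el 1 0 s 0 ∈ Q := (hQm _).mpr ⟨_, _, _, rfl⟩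
  have hzc : D.el 1 μ 0 0 * D.el 1 0 s 0 = z * (D.el 1 0 s 0 * D.el 1 μ 0 0) := by
    rw [hz, D.mul1, D.mul1, D.z_mul]
    congr 1
    · exact add_comm _ _
    · exact add_comm _ _
    · simp [hμ]
  obtain ⟨a, hae⟩ : ∃ a, a = D.el 1 μ 0 0 := ⟨_, rfl⟩
  obtain ⟨b, hbe⟩ : ∃ b, b = D.el 1 0 s 0 := ⟨_, rfl⟩
  rw [← hae] at hq1 hzc
  rw [← hbe] at hq2 hzc
  have hinvk : ∀ q : G, q * k = k⁻¹ * q → q * k⁻¹ = k * q := by
    intro q h
    have h1 : k * q * k = q := by rw [mul_assoc, h]; group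
    calc q * k⁻¹ = (k * q * k) * k⁻¹ := by rw [h1]
      _ = k * q := by group
  have hinvk' : ∀ q : G, q * k = k * q → q * k⁻¹ = k⁻¹ * q := by
    intro q h
    have : Commute q k := h
    exact this.inv_right.eq
  have hzk : z * k = k * z := by
    have e1 : z = a * b * (b * a)⁻¹ := by rw [hzc]; group
    have e2 : (a * b) * k = k * (a * b) ∧ (b * a) * k = k * (b * a) ∨
        (a * b) * k = k⁻¹ * (a * b) ∧ (b * a) * k = k⁻¹ * (b * a) := by
      rcases hP a hq1 with h1 | h1 <;> rcases hP b hq2 with h2 | h2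
      · left
        constructor
        · rw [mul_assoc, h2, ← mul_assoc, h1, mul_assoc]
        · rw [mul_assoc, h1, ← mul_assoc, h2, mul_assoc]
      · right
        constructor
        · rw [mul_assoc, h2, ← mul_assoc, hinvk' a h1, mul_assoc]
        · rw [mul_assoc, h1, ← mul_assoc, h2, mul_assoc]
      · right
        constructor
        · rw [mul_assoc, h2, ← mul_assoc, h1, mul_assoc]
        · rw [mul_assoc, h1, ← mul_assoc, hinvk' b h2, mul_assoc]
      · left
        constructor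
        · rw [mul_assoc, h2, ← mul_assoc, hinvk a h1, mul_assoc]
        · rw [mul_assoc, h1, ← mul_assoc, hinvk b h2, mul_assoc]
    rcases e2 with ⟨h1, h2⟩ | ⟨h1, h2⟩
    · have c1 : Commute (a * b) k := h1
      have c2 : Commute (b * a) k := h2
      rw [e1]
      exact (c1.mul_left c2.inv_left).eq
    · have h3 : (b * a)⁻¹ * k⁻¹ = k * (b * a)⁻¹ := by
        rw [inv_mul_eq_iff_eq_mul, ← mul_assoc, h2]; group
      have h4 : (b * a)⁻¹ * k = k⁻¹ * (b * a)⁻¹ := by
        rw [inv_mul_eq_iff_eq_mul, ← mul_assoc, hinvk _ h2]; group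
      rw [e1, mul_assoc, h4, ← mul_assoc, hinvk _ h1, mul_assoc]
  have h1 := hinv k hk
  rw [hzk, mul_assoc, mul_inv_cancel, mul_one] at h1
  apply hk1
  apply hodd4 k hk
  have h2 : k * k = 1 := by
    nth_rewrite 1 [h1]; exact inv_mul_cancel k
  calc k ^ 4 = (k * k) * (k * k) := by rw [show 4 = 2 + 2 from rfl, pow_add, pow_two]
    _ = 1 := by rw [h2, mul_one]

end odd

end Cfsg.Agent.H73.Heis
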