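import Cfsg.Agent.H73.Heis3

/-!
`SL_m(2)` as the group of all linear automorphisms.
-/

set_option autoImplicit false
set_option linter.unusedSectionVars false
set_option linter.unusedVariables false

namespace Cfsg.Agent.H73.Heis
open Subgroup Cfsg

/-- `SL_m(2) = GL_m(2)`. -/
noncomputable def slEquiv (m : ℕ) :
    Matrix.SpecialLinearGroup (Fin m) F ≃* ((Fin m → F) ≃ₗ[F] (Fin m → F)) :=
  MulEquiv.ofBijective Matrix.SpecialLinearGroup.toLin' (by
    constructor
    · exact Matrix.SpecialLinearGroup.toLin'_injective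
    · intro g
      have hd : (LinearMap.toMatrix' (g : (Fin m → F) →ₗ[F] (Fin m → F))).det = 1 := by
        refine (two _).resolve_left fun h0 => ?_
        have h1 : IsUnit (LinearMap.toMatrix' (g : (Fin m → F) →ₗ[F] (Fin m → F))).det := by
          rw [LinearMap.det_toMatrix']
          exact LinearEquiv.isUnit_det' g
        rw [h0] at h1
        exact not_isUnit_zero h1
      refine ⟨(⟨_, hd⟩ : Matrix.SpecialLinearGroup (Fin m) F), ?_⟩
      apply LinearEquiv.ext
      intro v
      show Matrix.toLin' (LinearMap.toMatrix' (g : (Fin m → F) →ₗ[F] (Fin m → F))) v = g v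
      rw [Matrix.toLin'_toMatrix']
      rfl)

theorem slEquiv_apply (m : ℕ) (A : Matrix.SpecialLinearGroup (Fin m) F) (v : Fin m → F) :
    slEquiv m A v = (A : Matrix (Fin m) (Fin m) F).mulVec v := rfl

/-- conjugation of linear automorphism groups. -/
noncomputable def conjE {V V' : Type*} [AddCommGroup V] [Module F V] [AddCommGroup V'] [Module F V']
    (e : V ≃ₗ[F] V') : (V' ≃ₗ[F] V') ≃* (V ≃ₗ[F] V) where
  toFun g := (e.trans g).trans e.symm
  invFun g := (e.symm.trans g).trans e
  left_inv g := by ext v; simp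
  right_inv g := by ext v; simp
  map_mul' g h := by ext v; simp [LinearEquiv.mul_apply]

theorem conjE_apply {V V' : Type*} [AddCommGroup V] [Module F V] [AddCommGroup V'] [Module F V']
    (e : V ≃ₗ[F] V') (g : V' ≃ₗ[F] V') (v : V) : conjE e g v = e.symm (g (e v)) := rfl

/-- coordinates. -/
def consE (n : ℕ) : ((Fin n → F) × F × F) ≃ₗ[F] (Fin (n + 2) → F) where
  toFun v := Fin.cons v.2.1 (Fin.cons v.2.2 v.1)
  invFun f := (fun i => f i.succ.succ, f 0, f 1)
  left_inv v := rfl
  right_inv f := by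
    ext i
    refine Fin.cases rfl (fun i => ?_) i
    refine Fin.cases rfl (fun i => rfl) i
  map_add' v w := by
    ext i
    refine Fin.cases rfl (fun i => ?_) i
    refine Fin.cases rfl (fun i => rfl) i
  map_smul' r v := by
    ext i
    refine Fin.cases rfl (fun i => ?_) i
    refine Fin.cases rfl (fun i => rfl) i

namespace HD
variable {G W : Type*} [Group G] [Finite G] [AddCommGroup W] [Module F W] (D : HD G W)
  {z : G} (hz : z = D.el 1 0 0 1)
  (hC : ∀ g ∈ centralizer ({z} : Set G), ∃ A μ s c, g = D.el A μ s c)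
  {Q : Subgroup G}
  (hQ : Q = (pCore 2 ↥(centralizer ({z} : Set G))).map (centralizer ({z} : Set G)).subtype)
include hz hC hQ

theorem mem_Q : ∀ g, g ∈ Q ↔ ∃ μ s c, g = D.el 1 μ s c := by
  intro g
  rw [hQ, D.pCore_eq hz hC]
  constructor
  · rintro ⟨x, hx, rfl⟩
    exact (D.mem_ker hC).mp hx
  · rintro ⟨μ, s, c, h⟩
    refine ⟨⟨g, h ▸ D.mem_cent hz 1 μ s c⟩, ?_, rfl⟩
    exact (D.mem_ker hC).mpr ⟨μ, s, c, h⟩

theorem cent_le : centralizer ({z} : Set G) ≤ normalizer (Q : Set G) := by
  intro g hg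
  rw [mem_normalizer_iff]
  have key : ∀ h ∈ centralizer ({z} : Set G), ∀ q ∈ Q, h * q * h⁻¹ ∈ Q := by
    intro h hh q hq
    rw [hQ] at hq ⊢
    obtain ⟨x, hx, rfl⟩ := hq
    exact ⟨⟨h, hh⟩ * x * ⟨h, hh⟩⁻¹,
      (Solv.pCore_normal (G := ↥(centralizer ({z} : Set G))) 2).conj_mem _ hx _, rfl⟩
  intro q
  constructor
  · exact key g hg q
  · intro h
    have := key g⁻¹ (inv_mem hg) _ h
    have e : g⁻¹ * (g * q * g⁻¹) * g⁻¹⁻¹ = q := by group
    rwa [e] at this

theorem isP_Q : IsPGroup 2 Q := by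
  rw [hQ]
  exact (Solv.pCore_isPGroup (G := ↥(centralizer ({z} : Set G))) 2).map _

end HD

/-- transport of `HD` along an isomorphism. -/
noncomputable def HDof {G W : Type*} [Group G] [AddCommGroup W] [Module F W]
    (Θ : G ≃* ((W × F × F) ≃ₗ[F] (W × F × F))) : HD G W where
  el A μ s c := Θ.symm (T A μ s c)
  mul A μ s c A' μ' s' c' := by
    rw [← map_mul]
    congr 1
    exact HT.mul A μ s c A' μ' s' c'
  inj h := HT.inj (Θ.symm.injective h)

end Cfsg.Agent.H73.Heis
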