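import Cfsg.Agent.H73.Heis4

/-!
The holomorph of an elementary abelian 2-group: coordinates for the centralizer of an involution
of the normal subgroup.
-/

set_option autoImplicit false
set_option linter.unusedSectionVars false
set_option linter.unusedVariables false

namespace Cfsg.Agent.H73.Heis
open Subgroup Cfsg

theorem exists_coord {V : Type*} [AddCommGroup V] [Module F V] [Finite V] (n : ℕ)
    (hV : Nat.card V = 2 ^ (n + 1)) {z : V} (hz : z ≠ 0) :
    ∃ e : V ≃ₗ[F] ((Fin n → F) × F), e z = (0, 1) := by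
  have hFD : FiniteDimensional F V := Module.Finite.of_finite
  have h1 : Module.finrank F V = n + 1 := by
    have h2 := Module.natCard_eq_pow_finrank (K := F) (V := V)
    rw [hV] at h2
    have h3 : Nat.card F = 2 := by simp [F]
    rw [h3] at h2
    exact (Nat.pow_right_injective (le_refl 2) h2).symm
  have h2 : Module.finrank F ((Fin n → F) × F) = n + 1 := by
    rw [Module.finrank_prod]; simp
  let e0 : V ≃ₗ[F] ((Fin n → F) × F) := LinearEquiv.ofFinrankEq _ _ (by rw [h1, h2])
  set y : (Fin n → F) × F := (0, 1) with hy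
  have hy0 : y ≠ 0 := by rw [hy]; intro h; exact one_ne_zero (congrArg Prod.snd h)
  set x := e0 z with hx
  have hx0 : x ≠ 0 := by rw [hx]; simpa using hz
  have hxT : x ∉ Submodule.span F {x + y} := by
    intro h
    rw [Submodule.mem_span_singleton] at h
    obtain ⟨a, ha⟩ := h
    rcases two a with h | h
    · rw [h, zero_smul] at ha; exact hx0 ha.symm
    · rw [h, one_smul] at ha; exact hy0 (by simpa using ha)
  obtain ⟨φ, h3, h4⟩ := exists_fun hxT
  have h5 : φ (x + y) = 0 := h4 _ (Submodule.mem_span_singleton_self _)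
  refine ⟨e0.trans (tv φ (x + y) h5), ?_⟩
  rw [LinearEquiv.trans_apply, tv_apply, ← hx, h3, one_smul, add_self_add]

section lin
variable {W : Type*} [AddCommGroup W] [Module F W]

noncomputable def L0 (A : W ≃ₗ[F] W) (μ : W →ₗ[F] F) : (W × F) →ₗ[F] (W × F) where
  toFun v := (A v.1, v.2 + μ v.1)
  map_add' v w := by
    ext
    · simp
    · simp; ring
  map_smul' r v := by
    ext
    · simp
    · simp; ring

theorem L0_bij (A : W ≃ₗ[F] W) (μ : W →ₗ[F] F) : Function.Bijective (L0 A μ) := by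
  constructor
  · rw [← LinearMap.ker_eq_bot, LinearMap.ker_eq_bot']
    rintro ⟨x, a⟩ h
    have h' : (A x, a + μ x) = ((0 : W), (0 : F)) := h
    simp only [Prod.mk.injEq] at h'
    have hx : x = 0 := by simpa using h'.1
    subst hx
    have := h'.2
    simp at this
    simp [this]
  · rintro ⟨y, d⟩
    refine ⟨(A.symm y, d - μ (A.symm y)), ?_⟩
    show (A (A.symm y), d - μ (A.symm y) + μ (A.symm y)) = (y, d)
    simp

noncomputable def LL (A : W ≃ₗ[F] W) (μ : W →ₗ[F] F) : (W × F) ≃ₗ[F] (W × F) :=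
  LinearEquiv.ofBijective (L0 A μ) (L0_bij A μ)

theorem LL_apply (A : W ≃ₗ[F] W) (μ : W →ₗ[F] F) (x : W) (a : F) : LL A μ (x, a) = (A x, a + μ x) := rfl

theorem LL_mul (A : W ≃ₗ[F] W) (μ : W →ₗ[F] F) (A' : W ≃ₗ[F] W) (μ' : W →ₗ[F] F) :
    LL A μ * LL A' μ' = LL (A * A') (μ ∘ₗ (A' : W →ₗ[F] W) + μ') := by
  apply LinearEquiv.ext
  rintro ⟨x, a⟩
  rw [LinearEquiv.mul_apply, LL_apply, LL_apply, LL_apply]
  ext
  · rfl
  · simp; ring

theorem LL_inj {A : W ≃ₗ[F] W} {μ : W →ₗ[F] F} {A' : W ≃ₗ[F] W} {μ' : W →ₗ[F] F}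
    (h : LL A μ = LL A' μ') : A = A' ∧ μ = μ' := by
  have key : ∀ x a, LL A μ (x, a) = LL A' μ' (x, a) := fun x a => by rw [h]
  simp only [LL_apply, Prod.mk.injEq] at key
  refine ⟨LinearEquiv.ext fun x => (key x 0).1, LinearMap.ext fun x => ?_⟩
  simpa using (key x 0).2

end lin

/-- the coordinates. -/
theorem affine {G : Type*} [Group G] [Finite G] (U M : Subgroup G) [U.Normal] (hUM : U ⊓ M = ⊥)
    (hUM' : U ⊔ M = ⊤) (hfaith : ∀ m ∈ M, (∀ u ∈ U, m * u * m⁻¹ = u) → m = 1)
    (hfull : ∀ φ : ↥U ≃* ↥U, ∃ m ∈ M, ∀ u : ↥U, ((φ u : ↥U) : G) = m * u * m⁻¹)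
    (hcomm : ∀ a ∈ U, ∀ b ∈ U, a * b = b * a)
    {W : Type*} [AddCommGroup W] [Module F W] [Finite W] (τ : Multiplicative (W × F) ≃* ↥U) (z : G)
    (hz : z = τ (Multiplicative.ofAdd ((0 : W), (1 : F)))) :
    ∃ D : HD G W, z = D.el 1 0 0 1 ∧
      (∀ g ∈ centralizer ({z} : Set G), ∃ A μ s c, g = D.el A μ s c) ∧
      ∀ u ∈ U, ∃ s c, u = D.el 1 0 s c := by
  classical
  let t : W × F → G := fun v => (τ (Multiplicative.ofAdd v) : G)
  have htU : ∀ v, t v ∈ U := fun v => (τ (Multiplicative.ofAdd v)).2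
  have ht_add : ∀ v w, t (v + w) = t v * t w := fun v w => by
    show ((τ (Multiplicative.ofAdd (v + w)) : ↥U) : G) = _
    rw [ofAdd_add, map_mul]; rfl
  have ht_zero : t 0 = 1 := by
    show ((τ (Multiplicative.ofAdd (0 : W × F)) : ↥U) : G) = _
    rw [ofAdd_zero, map_one]; rfl
  have ht_inj : ∀ v w, t v = t w → v = w := fun v w h => by
    exact Multiplicative.ofAdd.injective (τ.injective (Subtype.ext h))
  have ht_surj : ∀ u ∈ U, ∃ v, t v = u := fun u hu => by
    obtain ⟨v, hv⟩ := τ.surjective ⟨u, hu⟩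
    exact ⟨v.toAdd, congrArg Subtype.val hv⟩
  have hm : ∀ L : (W × F) ≃ₗ[F] (W × F), ∃ m ∈ M, ∀ v, t (L v) = m * t v * m⁻¹ := by
    intro L
    let φ : ↥U ≃* ↥U := (τ.symm.trans (AddEquiv.toMultiplicative L.toAddEquiv)).trans τ
    obtain ⟨m, hmM, hmu⟩ := hfull φ
    refine ⟨m, hmM, fun v => ?_⟩
    have h1 := hmu (τ (Multiplicative.ofAdd v))
    rw [← h1]
    show _ = ((τ ((AddEquiv.toMultiplicative L.toAddEquiv) (τ.symm (τ (Multiplicative.ofAdd v)))) : ↥U) : G)
    rw [MulEquiv.symm_apply_apply]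
    rfl
  choose m hmM hmt using hm
  have hext : ∀ a ∈ M, ∀ b ∈ M, (∀ v, a * t v * a⁻¹ = b * t v * b⁻¹) → a = b := by
    intro a ha b hb h
    have h1 : b⁻¹ * a = 1 := by
      apply hfaith _ (mul_mem (inv_mem hb) ha)
      intro u hu
      obtain ⟨v, rfl⟩ := ht_surj u hu
      calc b⁻¹ * a * t v * (b⁻¹ * a)⁻¹ = b⁻¹ * (a * t v * a⁻¹) * b := by group
        _ = t v := by rw [h v]; group
    exact (inv_mul_eq_one.mp h1).symm
  have hmmul : ∀ L L', m (L * L') = m L * m L' := by
    intro L L'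
    apply hext _ (hmM _) _ (mul_mem (hmM _) (hmM _))
    intro v
    rw [← hmt, LinearEquiv.mul_apply, hmt, hmt]
    group
  have hminj : ∀ L L', m L = m L' → L = L' := by
    intro L L' h
    apply LinearEquiv.ext
    intro v
    apply ht_inj
    rw [hmt, hmt, h]
  let D : HD G W :=
    { el := fun A μ s c => t (s, c) * m (LL A μ)
      mul := by
        intro A μ s c A' μ' s' c'
        rw [← LL_mul, hmmul]
        have h1 : (A s' + s, c + c' + μ s') = (s, c) + LL A μ (s', c') := by
          rw [LL_apply]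
          ext
          · exact add_comm _ _
          · show c + c' + μ s' = c + (c' + μ s')
            ring
        rw [h1, ht_add, hmt]
        group
      inj := by
        intro A μ s c A' μ' s' c' h
        have h1 : (t (s', c'))⁻¹ * t (s, c) ∈ U ⊓ M := by
          refine ⟨U.mul_mem (U.inv_mem (htU _)) (htU _), ?_⟩
          have : (t (s', c'))⁻¹ * t (s, c) = m (LL A' μ') * (m (LL A μ))⁻¹ := by
            rw [inv_mul_eq_iff_eq_mul, ← mul_assoc, ← h]; group
          rw [this]
          exact M.mul_mem (hmM _) (M.inv_mem (hmM _))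
        rw [hUM, mem_bot, inv_mul_eq_one] at h1
        have h2 := ht_inj _ _ h1
        simp only [Prod.mk.injEq] at h2
        rw [h1] at h
        obtain ⟨h3, h4⟩ := LL_inj (hminj _ _ (mul_left_cancel h))
        exact ⟨h3, h4, h2.1.symm, h2.2.symm⟩ }
  have hm1 : m (LL 1 0) = 1 := by
    have h1 : t (0, 0) * m (LL (1 : W ≃ₗ[F] W) 0) = 1 := D.one
    rwa [show ((0 : W), (0 : F)) = 0 from rfl, ht_zero, one_mul] at h1
  have hD : ∀ s c, D.el 1 0 s c = t (s, c) := by
    intro s c
    show t (s, c) * m (LL 1 0) = t (s, c)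
    rw [hm1, mul_one]
  refine ⟨D, by rw [hD]; exact hz, ?_, ?_⟩
  · intro g hg
    have hg2 : g ∈ U ⊔ M := by rw [hUM']; exact mem_top _
    rw [mem_sup_of_normal_left] at hg2
    obtain ⟨u, hu, k, hk, rfl⟩ := hg2
    obtain ⟨⟨s, c⟩, rfl⟩ := ht_surj u hu
    have hzU : z ∈ U := by rw [hz]; exact htU _
    have hkz : k * z * k⁻¹ = z := by
      rw [mem_centralizer_singleton_iff] at hg
      have h1 : t (s, c) * (k * z) = t (s, c) * (z * k) := by
        rw [← mul_assoc, hg, ← mul_assoc, ← mul_assoc, hcomm _ hzU _ (htU _)]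
      have h2 := mul_left_cancel h1
      rw [h2]; group
    -- the linear map of `k`
    have hU' : ∀ v, ∃ w, t w = k * t v * k⁻¹ := fun v =>
      ht_surj _ (‹U.Normal›.conj_mem _ (htU v) k)
    choose L hL using hU'
    have hLadd : ∀ v w, L (v + w) = L v + L w := by
      intro v w
      apply ht_inj
      rw [hL, ht_add, ht_add, hL, hL]; group
    let Lm : (W × F) →ₗ[F] (W × F) :=
      { toFun := L
        map_add' := hLadd
        map_smul' := by
          intro r v
          have h0 : L 0 = 0 := by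
            apply ht_inj; rw [hL, ht_zero]; group
          rcases two r with h | h
          · subst h; simp [h0]
          · subst h; simp }
    have hLi : Function.Injective Lm := by
      intro v w h
      have h1 : k * t v * k⁻¹ = k * t w * k⁻¹ := by
        rw [← hL, ← hL]; exact congrArg t h
      apply ht_inj
      have h2 := mul_right_cancel h1
      exact mul_left_cancel h2
    have hLu : Lm (0, 1) = (0, 1) := by
      apply ht_inj
      show t (L (0, 1)) = t (0, 1)
      rw [hL, show t ((0 : W), (1 : F)) = z from hz.symm, hkz]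
    obtain ⟨A, μ, hA⟩ := exists_A Lm hLi hLu
    refine ⟨A, μ, s, c, ?_⟩
    show t (s, c) * k = t (s, c) * m (LL A μ)
    congr 1
    apply hext _ hk _ (hmM _)
    rintro ⟨x, a⟩
    rw [← hL, ← hmt, LL_apply]
    exact congrArg t (hA x a)
  · intro u hu
    obtain ⟨⟨s, c⟩, rfl⟩ := ht_surj u hu
    exact ⟨s, c, (hD s c).symm⟩

end Cfsg.Agent.H73.Heis
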