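import Mathlib
import Cfsg.Agent.Asch.PaQb
import Cfsg.Agent.Transfer.SmallSylow
import Cfsg.Agent.H17.Basic

/-!
Simple groups of order `p ^ 2 * q * r`.
-/

set_option autoImplicit false

namespace Cfsg.Agent.H73.PPQR

open Cfsg

variable {G : Type*} [Group G] [Finite G] [IsSimpleGroup G]

theorem twelve_mul (hna : ¬ IsMulCommutative G) (r : ℕ) (hr : r.Prime) (h5 : 5 ≤ r)
    (hG : Nat.card G = 12 * r) : Nat.card G = 60 := by
  have : Fact r.Prime := ⟨hr⟩
  have hnd : ¬ r ∣ 12 := by
    intro h
    have h1 : r ∣ 2 ^ 2 * 3 := by norm_num; exact h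
    rcases (hr.dvd_mul).mp h1 with h2 | h2
    · have := Nat.le_of_dvd (by norm_num) (hr.dvd_of_dvd_pow h2)
      omega
    · have := Nat.le_of_dvd (by norm_num) h2
      omega
  have hc : Nat.card G = r ^ 1 * 12 := by rw [hG]; ring
  have h1 := H17.card_sylow_mem (p := r) (G := G) (k := 1) (m := 12) hc hnd
  rw [Finset.mem_filter] at h1
  have hne := H17.card_sylow_ne_one (p := r) hna (by rw [hG]; exact dvd_mul_left _ _)
  obtain ⟨P⟩ : Nonempty (Sylow r G) := inferInstance
  have hN := H17.card_normalizer_mul P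
  have hPc := H17.card_sylow_eq P hc hnd
  set n := Nat.card (Sylow r G) with hn
  have h2 : n ∈ ({1, 2, 3, 4, 6, 12} : Finset ℕ) := by
    have : Nat.divisors 12 = {1, 2, 3, 4, 6, 12} := by decide
    rw [← this]; exact h1.1
  have hmod := h1.2
  simp only [Finset.mem_insert, Finset.mem_singleton] at h2
  rcases h2 with h2 | h2 | h2 | h2 | h2 | h2
  · exact absurd h2 hne
  · rw [h2, Nat.mod_eq_of_lt (by omega)] at hmod; omega
  · rw [h2, Nat.mod_eq_of_lt (by omega)] at hmod; omega
  · rw [h2, Nat.mod_eq_of_lt (by omega)] at hmod; omega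
  · have h3 : r ∣ 5 := by
      have := Nat.dvd_sub_mod (n := r) n
      rw [hmod, h2] at this
      exact this
    have h4 := (Nat.prime_dvd_prime_iff_eq hr (by norm_num)).mp h3
    rw [hG, h4]
  · exfalso
    rw [h2, hG] at hN
    have h3 : Nat.card (Subgroup.normalizer ((P : Subgroup G) : Set G)) = r * 1 := by omega
    rw [pow_one] at hPc
    have h4 := H17.gcd_ne_one hna P hPc h3
    exact h4 (Nat.gcd_one_left _)

theorem main (p q r : ℕ) (hp : p.Prime) (hq : q.Prime) (hr : r.Prime)
    (hG : Nat.card G = p ^ 2 * q * r) : Nat.card G = 60 := by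
  have : Fact p.Prime := ⟨hp⟩
  have : Fact q.Prime := ⟨hq⟩
  have : Fact r.Prime := ⟨hr⟩
  have hna : ¬ IsMulCommutative G := by
    apply H17.not_comm_of_not_prime
    rw [hG]
    apply Nat.not_prime_mul (a := p ^ 2 * q) (b := r)
    · have := hp.two_le
      have := hq.two_le
      nlinarith
    · exact hr.one_lt.ne'
  have hnc : ∃ x y : G, x * y ≠ y * x := by
    by_contra hcon
    push Not at hcon
    exact hna ⟨⟨hcon⟩⟩
  have hsol : ∀ p q a b : ℕ, p.Prime → q.Prime → Nat.card G ≠ p ^ a * q ^ b := by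
    intro p q a b hp hq hc
    have h1 := Asch.PaQb.isSolvable (G := G) p q a b hp hq hc
    apply hna
    constructor
    constructor
    exact IsSimpleGroup.comm_iff_isSolvable.2 h1
  have hpq : p ≠ q := by
    rintro rfl
    exact hsol p r 3 1 hp hr (by rw [hG]; ring)
  have hpr : p ≠ r := by
    rintro rfl
    exact hsol p q 3 1 hp hq (by rw [hG]; ring)
  have hqr : q ≠ r := by
    rintro rfl
    exact hsol p q 2 2 hp hq (by rw [hG]; ring)
  have hprimes : ∀ s : ℕ, s.Prime → s ∣ Nat.card G → s = p ∨ s = q ∨ s = r := by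
    intro s hs hd
    rw [hG] at hd
    rcases hs.dvd_mul.mp hd with h | h
    · rcases hs.dvd_mul.mp h with h | h
      · exact Or.inl ((Nat.prime_dvd_prime_iff_eq hs hp).mp (hs.dvd_of_dvd_pow h))
      · exact Or.inr (Or.inl ((Nat.prime_dvd_prime_iff_eq hs hq).mp h))
    · exact Or.inr (Or.inr ((Nat.prime_dvd_prime_iff_eq hs hr).mp h))
  have hnd : ∀ {a b : ℕ}, a.Prime → b.Prime → a ≠ b → ¬ a ∣ b := fun ha hb hab h =>
    hab ((Nat.prime_dvd_prime_iff_eq ha hb).mp h)
  have hle : ∀ {s n : ℕ}, s ∣ n → 0 < n → s ≤ n := fun h h0 => Nat.le_of_dvd h0 h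
  -- `q` is not the smallest prime
  have hq1 : ¬ (q < p ∧ q < r) := by
    rintro ⟨h1, h2⟩
    obtain ⟨Q⟩ : Nonempty (Sylow q G) := inferInstance
    have hQ := H17.card_sylow_eq Q (k := 1) (m := p ^ 2 * r) (by rw [hG]; ring) (by
      intro h
      rcases hq.dvd_mul.mp h with h | h
      · exact hnd hq hp hpq.symm (hq.dvd_of_dvd_pow h)
      · exact hnd hq hr hqr h)
    rw [pow_one] at hQ
    have h3 := Transfer.hasNPC_of_card_eq_prime Q hQ (by
      intro s hs hsG hsq hd
      have := hle hd (by have := hq.two_le; omega)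
      rcases hprimes s hs hsG with h | h | h <;> omega)
    exact Transfer.not_hasNPC_of_isSimpleGroup (p := q) hnc
      (by rw [hG]; exact ⟨p ^ 2 * r, by ring⟩) h3
  have hr1 : ¬ (r < p ∧ r < q) := by
    rintro ⟨h1, h2⟩
    obtain ⟨Q⟩ : Nonempty (Sylow r G) := inferInstance
    have hQ := H17.card_sylow_eq Q (k := 1) (m := p ^ 2 * q) (by rw [hG]; ring) (by
      intro h
      rcases hr.dvd_mul.mp h with h | h
      · exact hnd hr hp hpr.symm (hr.dvd_of_dvd_pow h)
      · exact hnd hr hq hqr.symm h)
    rw [pow_one] at hQ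
    have h3 := Transfer.hasNPC_of_card_eq_prime Q hQ (by
      intro s hs hsG hsq hd
      have := hle hd (by have := hr.two_le; omega)
      rcases hprimes s hs hsG with h | h | h <;> omega)
    exact Transfer.not_hasNPC_of_isSimpleGroup (p := r) hnc
      (by rw [hG]; exact ⟨p ^ 2 * q, by ring⟩) h3
  have hpq' : p < q := by omega
  have hpr' : p < r := by omega
  have hkey : p = 2 ∧ (q = 3 ∨ r = 3) := by
    by_contra hcon
    obtain ⟨P⟩ : Nonempty (Sylow p G) := inferInstance
    have hP := H17.card_sylow_eq P (k := 2) (m := q * r) (by rw [hG]; ring) (by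
      intro h
      rcases hp.dvd_mul.mp h with h | h
      · exact hnd hp hq hpq h
      · exact hnd hp hr hpr h)
    have h3 := Transfer.hasNPC_of_card_eq_prime_sq P hP (by
      intro s hs hsG hsp
      constructor
      · intro hd
        have := hle hd (by have := hp.two_le; omega)
        rcases hprimes s hs hsG with h | h | h <;> omega
      · intro hd
        have h4 := hle hd (by omega)
        have h5 : s = p + 1 := by rcases hprimes s hs hsG with h | h | h <;> omega
        apply hcon
        have h6 : p = 2 := by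
          rcases hp.eq_two_or_odd with h7 | h7
          · exact h7
          · rcases hs.eq_two_or_odd with h8 | h8 <;> have := hp.two_le <;> omega
        refine ⟨h6, ?_⟩
        rcases hprimes s hs hsG with h | h | h <;> omega)
    exact Transfer.not_hasNPC_of_isSimpleGroup (p := p) hnc
      (by rw [hG]; exact ⟨p * q * r, by ring⟩) h3
  obtain ⟨rfl, h | h⟩ := hkey
  · subst h
    apply twelve_mul hna r hr _ (by rw [hG]; ring)
    have h4 : r ≠ 4 := by rintro rfl; revert hr; norm_num
    omega
  · subst h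
    apply twelve_mul hna q hq _ (by rw [hG]; ring)
    have h4 : q ≠ 4 := by rintro rfl; revert hq; norm_num
    omega

end Cfsg.Agent.H73.PPQR
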